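import Cfsg.Agent.Lib.Geometric.TensorForm.Pair
import Cfsg.Agent.Lib.SL2.Dickson.Generation

/-!
A non-scalar pair of root elements forces a non-scalar element in the corner of the root: a minimal
clean pair has a non-zero root `r`, and Dickson's theorem gives a word whose lower left entry
vanishes at `r` while the square of the upper left one is not in the field.
-/

set_option autoImplicit false
set_option linter.unusedSectionVars false

namespace CfsgLib.Geometric.TensorForm

open Polynomial
open CfsgLib.ClassicalLinear (upS upS_coe)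
open CfsgLib.SL2.Dickson (lowS lowS_coe generation)

/-- The word used when `r ^ 2 = -1` over the field with three elements. -/
def wordI {R : Type*} [CommRing R] (x : R) : W4 R :=
  W4.mul x (W4.mul x (W4.mul x (W4.mul x (W4.mul x (W4.mul x (W4.low 1) (W4.up 1)) (W4.low 1))
    (W4.up 2)) (W4.low 2)) (W4.up 1)) (W4.low 2)

/-- The word used when `r = ±1` over the field with three elements. -/
def wordOne {R : Type*} [CommRing R] (x : R) : W4 R :=
  W4.mul x (W4.mul x (W4.mul x (W4.mul x (W4.mul x (W4.mul x (W4.low 1) (W4.up 1)) (W4.low 2))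
    (W4.up 2)) (W4.low 1)) (W4.up 1)) (W4.low 2)

variable {F : Type*} [Field F]

lemma word_wordI : Word (wordI (X : F[X])) := by
  have h := ((((((Word.low_one (1 : F)).up 1).low 1).up 2).low 2).up 1).low 2
  simpa [wordI, Polynomial.C_ofNat] using h

lemma word_wordOne : Word (wordOne (X : F[X])) := by
  have h := ((((((Word.low_one (1 : F)).up 1).low 2).up 2).low 1).up 1).low 2
  simpa [wordOne, Polynomial.C_ofNat] using h

section Ev

variable {R : Type*} [CommRing R] [Algebra F R] (r : R)

/-- The matrix of a word at `r`. -/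
noncomputable def evM (w : W4 F[X]) : Matrix (Fin 2) (Fin 2) R :=
  !![1 + r * aeval r w.a, r * aeval r w.b; aeval r w.c, 1 + r * aeval r w.d]

lemma evM_mul (v w : W4 F[X]) : evM r (W4.mul X v w) = evM r v * evM r w := by
  ext i j
  fin_cases i <;> fin_cases j <;>
    simp [evM, W4.mul, Matrix.mul_apply, Fin.sum_univ_two] <;> ring

lemma evM_one : evM r (W4.one : W4 F[X]) = 1 := by
  ext i j
  fin_cases i <;> fin_cases j <;> simp [evM, W4.one]

lemma det_evM {w : W4 F[X]} (hw : Word w) : (evM r w).det = 1 := by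
  have h := congrArg (aeval r) hw.dt
  simp only [W4.dt, map_add, map_sub, map_mul, aeval_X, map_zero] at h
  rw [evM, Matrix.det_fin_two_of]
  linear_combination r * h

end Ev

lemma bar_evM {R : Type*} [CommRing R] [Algebra F R] (r : R) {w : W4 F[X]} (hw : Word w) :
    evM r w * evM r w.bar = 1 := by
  rw [← evM_mul, show W4.mul X w w.bar = W4.one from ?_, evM_one]
  have h := hw.dt
  simp only [W4.dt] at h
  apply W4.ext <;> simp only [W4.mul, W4.bar, W4.one] <;> first | linear_combination h | ring

variable {L : Type*} [Field L] [Algebra F L]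

/-- The elements of `SL₂` of a subfield given by words at `r`. -/
def wordGroup (r : L) (R : Subfield L) : Subgroup (Matrix.SpecialLinearGroup (Fin 2) R) where
  carrier := {g | ∃ w : W4 F[X], Word w ∧
    evM r w = (g : Matrix (Fin 2) (Fin 2) R).map R.subtype}
  one_mem' := ⟨W4.one, Word.one, by
    rw [evM_one, Matrix.SpecialLinearGroup.coe_one, Matrix.map_one _ (map_zero _) (map_one _)]⟩
  mul_mem' := by
    rintro g k ⟨v, hv, hg⟩ ⟨w, hw, hk⟩
    exact ⟨_, hv.mul hw, by
      rw [evM_mul, hg, hk, Matrix.SpecialLinearGroup.coe_mul, Matrix.map_mul]⟩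
  inv_mem' := by
    rintro g ⟨w, hw, hg⟩
    refine ⟨w.bar, hw.bar, ?_⟩
    have h1 := bar_evM r hw
    rw [hg] at h1
    have h2 : ((g⁻¹ : Matrix.SpecialLinearGroup (Fin 2) R) : Matrix (Fin 2) (Fin 2) R).map
        R.subtype * (g : Matrix (Fin 2) (Fin 2) R).map R.subtype = 1 := by
      rw [← Matrix.map_mul, ← Matrix.SpecialLinearGroup.coe_mul, inv_mul_cancel,
        Matrix.SpecialLinearGroup.coe_one, Matrix.map_one _ (map_zero _) (map_one _)]
    exact (left_inv_eq_right_inv h2 h1).symm

/-- A word with zero lower left entry at `r` and upper left entry outside square roots of the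
field. -/
lemma exists_word [Finite L] (h2 : (2 : L) ≠ 0) {r : L} (hr : r ∉ Set.range (algebraMap F L))
    {t : F} (ht : t ≠ 0)
    (hex : Nat.card (Subfield.closure ({algebraMap F L t * r} : Set L)) = 9 →
      (algebraMap F L t * r) ^ 2 ≠ -1) :
    ∃ w : W4 F[X], Word w ∧ aeval r (X * w.c) = 0 ∧
      aeval r ((1 + X * w.a) ^ 2) ∉ Set.range (algebraMap F L) := by
  classical
  set R := Subfield.closure ({algebraMap F L t * r} : Set L) with hR
  set lam : R := ⟨algebraMap F L t * r, Subfield.subset_closure rfl⟩ with hlam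
  have hlam0 : lam ≠ 0 := fun h => by
    have h' : algebraMap F L t * r = 0 := congrArg Subtype.val h
    rcases mul_eq_zero.mp h' with h0 | h0
    · exact ht ((_root_.map_eq_zero _).mp h0)
    · exact hr ⟨0, by rw [h0, map_zero]⟩
  have hgen : Subfield.closure ({lam} : Set R) = ⊤ := by
    refine eq_top_iff.mpr fun x _ => ?_
    have hle : R ≤ (Subfield.closure ({lam} : Set R)).map R.subtype := by
      exact Subfield.closure_le.mpr
        (Set.singleton_subset_iff.mpr ⟨lam, Subfield.subset_closure rfl, rfl⟩)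
    obtain ⟨y, hy, hyx⟩ := hle x.2
    rwa [show y = x from Subtype.ext hyx] at hy
  have h2R : (2 : R) ≠ 0 := fun h => h2 (by
    have := congrArg R.subtype h
    rwa [map_ofNat, map_zero] at this)
  have hl : lowS 1 ∈ wordGroup (F := F) r R := ⟨_, Word.low_one 1, by
    ext i j
    fin_cases i <;> fin_cases j <;> simp [evM, W4.low, lowS_coe]⟩
  have hu : upS lam ∈ wordGroup (F := F) r R := ⟨_, Word.up_one t, by
    ext i j
    fin_cases i <;> fin_cases j <;> simp [evM, W4.up, upS_coe, hlam, mul_comm]⟩
  have htop : wordGroup (F := F) r R = ⊤ := by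
    rcases generation h2R hlam0 hgen hl hu with h | ⟨h9, hsq, -⟩
    · exact h
    · exact absurd (by simpa [hlam] using congrArg Subtype.val hsq) (hex h9)
  by_contra hno
  push Not at hno
  -- every unit of `R` has its square in `F`
  have hsq : ∀ μ : R, μ ≠ 0 → (μ : L) ^ 2 ∈ Set.range (algebraMap F L) := by
    intro μ hμ
    obtain ⟨g, hge⟩ : ∃ g : Matrix.SpecialLinearGroup (Fin 2) R,
        (g : Matrix (Fin 2) (Fin 2) R) = !![μ, 0; 0, μ⁻¹] :=
      ⟨⟨_, by simp [Matrix.det_fin_two_of, hμ]⟩, rfl⟩
    obtain ⟨w, hw, hwe⟩ : g ∈ wordGroup (F := F) r R := htop ▸ Subgroup.mem_top _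
    rw [hge] at hwe
    have e1 := congrFun (congrFun hwe 1) 0
    have e0 := congrFun (congrFun hwe 0) 0
    simp [evM] at e1 e0
    have := hno w hw (by simp [e1])
    simpa [e0] using this
  have hall : ∀ μ : R, (μ : L) ∈ (algebraMap F L).fieldRange := by
    intro μ
    have h1 : ∀ ν : R, (ν : L) ^ 2 ∈ (algebraMap F L).fieldRange := fun ν => by
      rcases eq_or_ne ν 0 with rfl | hν
      · simp
      · exact hsq ν hν
    have e : (μ : L) = (((μ + 1 : R) : L) ^ 2 - (μ : L) ^ 2 - 1) / 2 := by
      push_cast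
      field_simp
      ring
    rw [e]
    refine div_mem (sub_mem (sub_mem (h1 _) (h1 _)) (one_mem _)) ?_
    exact ⟨2, by rw [map_ofNat]⟩
  obtain ⟨s, hs⟩ := hall lam
  refine hr ⟨t⁻¹ * s, ?_⟩
  rw [map_mul, map_inv₀, hs, hlam]
  field_simp [(map_ne_zero (algebraMap F L)).mpr ht]

variable {A : Type*} [Ring A] [Algebra F A] {N N' : A} {M : Subgroup Aˣ}

/-- The relations of a pair as an ideal. -/
def relIdeal (N N' : A) : Ideal F[X] where
  carrier := {p | psi N N' p = 0}
  add_mem' {p q} hp hq := by show psi N N' (p + q) = 0; rw [map_add, show psi N N' p = 0 from hp, show psi N N' q = 0 from hq, add_zero]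
  zero_mem' := map_zero _
  smul_mem' c p hp := psi_zero_mul hp c

/-- A clean non-scalar pair has an irreducible relation factor other than `X`. -/
lemma exists_factor [FiniteDimensional F A] (hns : ¬ IsScal F N N') (hC : Clean F N N') :
    ∃ p : F[X], Irreducible p ∧ p.eval 0 ≠ 0 ∧ ∀ g : F[X], psi N N' g = 0 → p ∣ g := by
  classical
  set I := relIdeal (F := F) N N' with hI
  set m := Submodule.IsPrincipal.generator I with hmdef
  have hdvd : ∀ g : F[X], psi N N' g = 0 → m ∣ g := fun g hg =>
    (Submodule.IsPrincipal.mem_iff_generator_dvd I).mp hg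
  have hm0 : m ≠ 0 := by
    intro h
    have hint : IsIntegral F (N' * N) := Algebra.IsIntegral.isIntegral _
    have : psi N N' (minpoly F (N' * N)) = 0 := by
      rw [psi_apply, ev, minpoly.aeval, mul_zero]
    exact minpoly.ne_zero hint (zero_dvd_iff.mp (h ▸ hdvd _ this))
  have hmI : psi N N' m = 0 := Submodule.IsPrincipal.generator_mem I
  obtain ⟨m', hm', hnd⟩ := Polynomial.exists_eq_pow_rootMultiplicity_mul_and_not_dvd m hm0 0
  rw [map_zero, sub_zero] at hm' hnd
  by_cases hu : IsUnit m'
  · exfalso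
    obtain ⟨c, hc, hc'⟩ := Polynomial.isUnit_iff.mp hu
    have hpow : psi N N' (X ^ rootMultiplicity 0 m : F[X]) = 0 := by
      rw [hm', ← hc', mul_comm, ← smul_eq_C_mul, map_smul, smul_eq_zero] at hmI
      exact hmI.resolve_left hc.ne_zero
    have down : ∀ n : ℕ, psi N N' (X ^ (n + 1) : F[X]) = 0 → psi N N' (X : F[X]) = 0 := by
      intro n
      induction n with
      | zero => simp
      | succ n ih =>
        intro h
        refine ih ?_
        rw [pow_succ'] at h ⊢
        refine hC.sqf _ ?_
        rwa [pow_succ'] at h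
    refine hns (isScal_of ⟨0, ?_⟩)
    rw [map_zero, sub_zero]
    cases hn : rootMultiplicity 0 m with
    | zero => rw [hn, pow_zero] at hpow; rw [← one_mul X, psi_mul_zero hpow]
    | succ n => rw [hn] at hpow; exact down n hpow
  · have hm'0 : m' ≠ 0 := fun h => hm0 (by rw [hm', h, mul_zero])
    obtain ⟨p, hp, hpm⟩ := WfDvdMonoid.exists_irreducible_factor hu hm'0
    refine ⟨p, hp, fun h0 => hnd ?_, fun g hg =>
      hpm.trans ((Dvd.intro_left _ hm'.symm).trans (hdvd g hg))⟩
    refine dvd_trans ?_ hpm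
    rw [X_dvd_iff, coeff_zero_eq_eval_zero, h0]

/-- A non-scalar pair forces a non-scalar element in the corner of `N`. -/
theorem exists_big_of_not_isScal [Finite F] [FiniteDimensional F A] (h2 : (2 : F) ≠ 0)
    (hN : Root F M N) (hshear : Nat.card F = 3 → ∃ (S S' : A) (κ : F), κ ≠ 0 ∧ Root F M S ∧
      Root F M S' ∧ N * S = 0 ∧ S * N = 0 ∧ N * S' = 0 ∧ S' * N = 0 ∧ S * S' = κ • N ∧
      S' * S = (-κ) • N)
    {N₁ : A} (hN₁ : Root F M N₁) (hns : ¬ IsScal F N N₁) :
    ∃ A₀ : A, InM M (1 + N * A₀ * N) ∧ ¬ ∃ c : F, N * A₀ * N = c • N := by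
  classical
  by_contra hno
  have hB : NoBig F M N := fun A₀ h => by
    by_contra hc
    exact hno ⟨A₀, h, hc⟩
  obtain ⟨N', hm, hC⟩ := exists_clean h2 hN hB ⟨N₁, hN₁, hns⟩
  have hN' := hm.root
  have hns' := hm.nscal
  obtain ⟨p, hp, hp0, hdvd⟩ := exists_factor hns' hC
  by_cases hA : ∃ l : F, p.eval l = 0
  · obtain ⟨l, hl⟩ := hA
    have hl0 : l ≠ 0 := fun h => hp0 (h ▸ hl)
    have hroot : ∀ g : F[X], psi N N' g = 0 → aeval l g = 0 := fun g hg => by
      obtain ⟨g', rfl⟩ := hdvd g hg
      simp [hl]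
    have hword : ∀ μ : F, μ ≠ 0 → μ ≠ 1 →
        psi N N' (X * (X - C l)) = 0 ∧
        ∃ s : F, s = μ ^ 2 ∧ (Sing F N N' → s = 1) := by
      intro μ hμ0 hμ1
      set b' := (μ - 1) / l with hb'
      set b := -b' / μ with hb
      have hb'0 : b' ≠ 0 := div_ne_zero (sub_ne_zero.mpr hμ1) hl0
      have hbb : b * b' ≠ 0 := mul_ne_zero (div_ne_zero (neg_ne_zero.mpr hb'0) hμ0) hb'0
      have hw := ((Word.low_one b).up 1).low b'
      set w := W4.mul X (W4.mul X (W4.low (C b)) (W4.up (C 1))) (W4.low (C b')) with hwdef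
      have hwc : X * w.c = C (b * b') * (X * (X - C l)) := by
        have e : b + b' = -(b * b') * l := by rw [hb, hb']; field_simp; ring
        have e' : C b + C b' = -(C b * C b') * C l := by
          rw [← map_add, e]; simp
        simp [hwdef, W4.mul, W4.low, W4.up]
        linear_combination X * e'
      have hwa : 1 + X * w.a = 1 + C b' * X := by
        simp [hwdef, W4.mul, W4.low, W4.up]
      obtain ⟨h1, s, h3⟩ := key h2 hN hB hm hC (L := F) hl0 hroot hw
        (by rw [hwc]; simp)
      refine ⟨?_, s, ?_, fun hS => ?_⟩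
      · rw [hwc, ← smul_eq_C_mul, map_smul, smul_eq_zero] at h1
        exact h1.resolve_left hbb
      · have := hroot _ (psi_sub_C h3)
        rw [hwa] at this
        simp [hb'] at this
        field_simp at this
        linear_combination -this
      · have := hS _ (psi_sub_C h3)
        rw [hwa] at this
        simp at this
        linear_combination -this
    have hX : psi N N' (X * (X - C l)) = 0 :=
      (hword (-1) (neg_ne_zero.mpr one_ne_zero)
        (fun h => h2 (by linear_combination -h))).1
    by_cases hS : Sing F N N'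
    swap
    · refine hns' (isScal_of ⟨l, ?_⟩)
      have h : psi N N' (X * (X - C l)) = 0 := hX
      simp only [Sing, not_forall] at hS
      obtain ⟨g, hg, hg0⟩ := hS
      have e : g.eval 0 • (X - C l) = g * (X - C l) - g.divX * (X * (X - C l)) := by
        conv_rhs => arg 1; rw [← X_mul_divX_add g]
        rw [coeff_zero_eq_eval_zero, smul_eq_C_mul]; ring
      have := congrArg (psi N N') e
      rw [map_smul, map_sub (psi N N') (g * _), psi_mul_zero hg, psi_zero_mul h, sub_zero,
        smul_eq_zero] at this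
      exact this.resolve_left hg0
    have hμ : ∀ μ : F, μ = 0 ∨ μ = 1 ∨ μ = -1 := by
      intro μ
      by_contra hne
      push Not at hne
      obtain ⟨-, s, hs, hs1⟩ := hword μ hne.1 hne.2.1
      have := (hs.symm.trans (hs1 hS))
      rcases mul_self_eq_one_iff.mp (by linear_combination this : μ * μ = 1) with h | h
      exacts [hne.2.1 h, hne.2.2 h]
    have h11 : (1 : F) ≠ -1 := fun h => h2 (by linear_combination h)
    have hcard : Nat.card F = 3 := by
      have := Fintype.ofFinite F
      rw [Nat.card_eq_fintype_card, ← Finset.card_univ,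
        show (Finset.univ : Finset F) = {0, 1, -1} by
          ext x; simpa using hμ x,
        Finset.card_insert_of_notMem (by simp), Finset.card_insert_of_notMem (by simpa using h11),
        Finset.card_singleton]
    obtain ⟨S, S', κ, hκ, hSr, hSr', a1, a2, a3, a4, a5, a6⟩ := hshear hcard
    have h3 : (3 : F) = 0 := by
      have := Fintype.ofFinite F
      have := FiniteField.cast_card_eq_zero F
      rw [← Nat.card_eq_fintype_card, hcard] at this
      exact_mod_cast this
    have hlsq : l = 1 ∨ l = -1 := (hμ l).resolve_left hl0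
    have hc : aeval l (X * (wordOne (X : F[X])).c) = 0 := by
      rcases hlsq with rfl | rfl <;> simp [wordOne, W4.mul, W4.low, W4.up]
      · linear_combination 25 * h3
      · linear_combination h3
    obtain ⟨hγ, -⟩ := key h2 hN hB hm hC (L := F) hl0 hroot word_wordOne hc
    obtain ⟨s, hs⟩ := shift h2 hN hB hN' hC hκ hSr hSr' a1 a2 a3 a4 a5 a6 word_wordOne hγ
      (by simp [wordOne, W4.mul, W4.low, W4.up]; linear_combination 2 * h3)
    have hs0 := hS _ (psi_sub_C hs)
    have hsl := hroot _ (psi_sub_C hs)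
    simp [wordOne, W4.mul, W4.low, W4.up] at hs0 hsl
    rcases hlsq with rfl | rfl
    · exact h2 (by linear_combination hs0 - hsl + 15 * h3)
    · exact h2 (by linear_combination (-2 : F) * (hs0 - hsl))
  push Not at hA
  have : Fact (Irreducible p) := ⟨hp⟩
  have : Module.Finite F (AdjoinRoot p) := (AdjoinRoot.powerBasis hp.ne_zero).finite
  have : Finite (AdjoinRoot p) := Module.finite_of_finite F
  set r := AdjoinRoot.root p with hrdef
  have hrp : aeval r p = 0 := by rw [AdjoinRoot.aeval_eq, AdjoinRoot.mk_self]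
  have hroot : ∀ g : F[X], psi N N' g = 0 → aeval r g = 0 := fun g hg => by
    obtain ⟨g', rfl⟩ := hdvd g hg
    rw [map_mul, hrp, zero_mul]
  have hr : r ∉ Set.range (algebraMap F (AdjoinRoot p)) := by
    rintro ⟨c, hc⟩
    rw [← hc, aeval_algebraMap_apply, map_eq_zero, coe_aeval_eq_eval] at hrp
    exact hA c hrp
  have hr0 : r ≠ 0 := fun h => hr ⟨0, by rw [h, map_zero]⟩
  have h2L : (2 : AdjoinRoot p) ≠ 0 := by
    rw [← map_ofNat (algebraMap F (AdjoinRoot p))]
    exact (_root_.map_ne_zero _).mpr h2
  have hfin : ∀ t : F, t ≠ 0 →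
      (algebraMap F (AdjoinRoot p) t * r) ^ 2 ≠ -1 → False := by
    intro t ht hsq
    obtain ⟨w, hw, hc, hnr⟩ := exists_word h2L hr ht fun _ => hsq
    obtain ⟨-, s, hs⟩ := key h2 hN hB hm hC hr0 hroot hw hc
    have := hroot _ (psi_sub_C hs)
    rw [map_sub, aeval_C, sub_eq_zero] at this
    exact hnr ⟨s, this.symm⟩
  by_cases h1 : r ^ 2 = -1
  swap
  · exact hfin 1 one_ne_zero (by rw [map_one, one_mul]; exact h1)
  by_cases ht : ∃ t : F, t ≠ 0 ∧ t ^ 2 ≠ 1
  · obtain ⟨t, ht0, ht1⟩ := ht
    refine hfin t ht0 fun h => ht1 ?_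
    rw [mul_pow, h1, mul_neg, mul_one, neg_inj, ← map_pow] at h
    exact (algebraMap F (AdjoinRoot p)).injective (h.trans (map_one _).symm)
  push Not at ht
  have h11 : (1 : F) ≠ -1 := fun h => h2 (by linear_combination h)
  have hcard : Nat.card F = 3 := by
    have := Fintype.ofFinite F
    rw [Nat.card_eq_fintype_card, ← Finset.card_univ,
      show (Finset.univ : Finset F) = {0, 1, -1} by
        ext x
        rcases eq_or_ne x 0 with rfl | hx
        · simp
        · rcases mul_self_eq_one_iff.mp ((sq x).symm.trans (ht x hx)) with h | h <;> simp [h],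
      Finset.card_insert_of_notMem (by simp), Finset.card_insert_of_notMem (by simpa using h11),
      Finset.card_singleton]
  obtain ⟨S, S', κ, hκ, hSr, hSr', a1, a2, a3, a4, a5, a6⟩ := hshear hcard
  have h3 : (3 : F) = 0 := by
    have := Fintype.ofFinite F
    have := FiniteField.cast_card_eq_zero F
    rw [← Nat.card_eq_fintype_card, hcard] at this
    exact_mod_cast this
  have h3L : (3 : AdjoinRoot p) = 0 := by
    rw [← map_ofNat (algebraMap F (AdjoinRoot p)), h3, map_zero]
  have hc : aeval r (X * (wordI (X : F[X])).c) = 0 := by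
    simp [wordI, W4.mul, W4.low, W4.up, map_ofNat, -mul_eq_zero]
    linear_combination (8 * r ^ 2 + 30 * r + 21) * h1 + (-8 * r - 7) * h3L
  obtain ⟨hγ, -⟩ := key h2 hN hB hm hC hr0 hroot word_wordI hc
  obtain ⟨s, hs⟩ := shift h2 hN hB hN' hC hκ hSr hSr' a1 a2 a3 a4 a5 a6 word_wordI hγ
    (by simp [wordI, W4.mul, W4.low, W4.up]; linear_combination 2 * h3)
  have hsr := hroot _ (psi_sub_C hs)
  simp [wordI, W4.mul, W4.low, W4.up, map_ofNat] at hsr
  exact hr ⟨s, by
    rw [AdjoinRoot.algebraMap_eq]
    linear_combination -hsr + (22 + 8 * r) * h1 + (-7 + 2 * r) * h3L⟩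

end CfsgLib.Geometric.TensorForm
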