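import Cfsg.Agent.Lib.Geometric.TensorForm.Symplectic

/-!
# Growing square-zero elements of an overgroup of a symplectic tensor wreath stabiliser

Square-zero operators `X` with `1 + X` in an overgroup: closure under conjugation, commuting sums,
brackets and factorwise compressions.
-/

set_option autoImplicit false
set_option linter.unusedSectionVars false

namespace CfsgLib.Geometric.TensorForm

open scoped Matrix MatrixGroups
open Matrix CfsgLib.SmallDim Cfsg.Geo

variable {k t : ℕ} {F : Type*} [Field F]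

local notation "Mk" => Matrix (Fin k) (Fin k) F
local notation "Mt" => Matrix (Fin t → Fin k) (Fin t → Fin k) F

lemma pureMat_eq_slot_mul (g : Fin t → Mk) (i : Fin t) :
    pureMat g = slot i (g i) * pureMat (Function.update g i 1) := by
  rw [slot_apply, ← pureMat_mul]
  congr 1
  funext l
  by_cases h : l = i
  · subst h; simp
  · simp [Pi.mulSingle_eq_of_ne h, Function.update_of_ne h]

lemma pureMat_mul_slot (g : Fin t → Mk) (i : Fin t) (A : Mk) :
    pureMat g * slot i A = pureMat (Function.update g i (g i * A)) := by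
  rw [slot_apply, ← pureMat_mul]
  congr 1
  funext l
  by_cases h : l = i
  · subst h; simp
  · simp [Pi.mulSingle_eq_of_ne h, Function.update_of_ne h]

lemma slot_mul_pureMat (g : Fin t → Mk) (i : Fin t) (A : Mk) :
    slot i A * pureMat g = pureMat (Function.update g i (A * g i)) := by
  rw [slot_apply, ← pureMat_mul]
  congr 1
  funext l
  by_cases h : l = i
  · subst h; simp
  · simp [Pi.mulSingle_eq_of_ne h, Function.update_of_ne h]

/-- An operator commutes with the operators of the factor at position `i`. -/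
def SlotFree (i : Fin t) (Z : Mt) : Prop := ∀ A : Mk, slot i A * Z = Z * slot i A

lemma SlotFree.pureMat {i : Fin t} {g : Fin t → Mk} (hg : g i = 1) :
    SlotFree i (CfsgLib.SmallDim.pureMat g) := fun A => by
  rw [pureMat_mul_slot, slot_mul_pureMat, hg, one_mul, mul_one]

lemma SlotFree.slot {i j : Fin t} (h : i ≠ j) (A : Mk) : SlotFree i (TensorForm.slot j A) :=
  fun B => slot_commute h B A

lemma SlotFree.mul {i : Fin t} {X Y : Mt} (hX : SlotFree i X) (hY : SlotFree i Y) :
    SlotFree i (X * Y) := fun A => by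
  rw [← mul_assoc, hX, mul_assoc, hY, mul_assoc]

lemma SlotFree.sub {i : Fin t} {X Y : Mt} (hX : SlotFree i X) (hY : SlotFree i Y) :
    SlotFree i (X - Y) := fun A => by rw [mul_sub, sub_mul, hX, hY]

lemma SlotFree.smul {i : Fin t} {X : Mt} (hX : SlotFree i X) (c : F) :
    SlotFree i (c • X) := fun A => by rw [Matrix.mul_smul, Matrix.smul_mul, hX]

namespace Datum

variable (D : Datum k F)

/-- The operator `x ↦ f1 x w • u`. -/
def rk1 (u w : Fin k → F) : Mk := vecMulVec u (D.J *ᵥ w)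

variable {D} (hD : D.IsSymp)
include hD

lemma IsSymp.nil_eq (u : Fin k → F) : D.nil u = D.rk1 u u := by
  rw [Datum.nil, hD.id]; rfl

lemma IsSymp.rk1_mul (a b c d : Fin k → F) :
    D.rk1 a b * D.rk1 c d = D.f1 c b • D.rk1 a d := by
  rw [rk1, rk1, rk1, Matrix.vecMulVec_mul_vecMulVec, Matrix.vecMulVec_smul, hD.f1_eq,
    dotProduct_comm]

lemma IsSymp.rk1_mul_self {u : Fin k → F} : D.rk1 u u * D.rk1 u u = 0 := by
  rw [hD.rk1_mul, hD.symp_f1.alternating u, zero_smul]

lemma IsSymp.nilSlot_eq (i : Fin t) (u : Fin k → F) : D.nilSlot i u = slot i (D.rk1 u u) := by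
  rw [Datum.nilSlot, hD.nil_eq]

end Datum

variable (D : Datum k F)

/-- A subgroup between the isometries in the wreath product and all isometries. -/
structure Over (M : Subgroup (GL (Fin t → Fin k) F)) : Prop where
  ge : tensorWreathStandard k t F ⊓ D.isom t ≤ M
  le : M ≤ D.isom t

/-- `X` is square-zero and `1 + X` lies in the subgroup. -/
def Good (M : Subgroup (GL (Fin t → Fin k) F)) (X : Mt) : Prop :=
  X * X = 0 ∧ ∃ g ∈ M, (g : Mt) = 1 + X

/-- A non-zero multiple of `X` is good. -/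
def Ex (M : Subgroup (GL (Fin t → Fin k) F)) (X : Mt) : Prop := ∃ c : F, c ≠ 0 ∧ Good M (c • X)

variable {D} {M : Subgroup (GL (Fin t → Fin k) F)} {X Y : Matrix (Fin t → Fin k) (Fin t → Fin k) F}

lemma inv_val_of {g : GL (Fin t → Fin k) F} (hX : X * X = 0) (hg : (g : Mt) = 1 + X) :
    ((g⁻¹ : GL (Fin t → Fin k) F) : Mt) = 1 - X := by
  have h : (g : Mt) * (1 - X) = 1 := by
    rw [hg, add_mul, one_mul, mul_sub, mul_one, hX, sub_zero, sub_add_cancel]
  calc ((g⁻¹ : GL (Fin t → Fin k) F) : Mt) = ((g⁻¹ : GL (Fin t → Fin k) F) : Mt) * ((g : Mt) * (1 - X)) := by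
        rw [h, mul_one]
    _ = 1 - X := by rw [← mul_assoc, Units.inv_mul, one_mul]

lemma Good.neg (h : Good M X) : Good M (-X) := by
  obtain ⟨hX, g, hg, hgX⟩ := h
  exact ⟨by rw [neg_mul_neg, hX], g⁻¹, inv_mem hg, by rw [inv_val_of hX hgX, sub_eq_add_neg]⟩

lemma Good.add (hX : Good M X) (hY : Good M Y) (h1 : X * Y = 0) (h2 : Y * X = 0) :
    Good M (X + Y) := by
  obtain ⟨hXX, g, hg, hgX⟩ := hX
  obtain ⟨hYY, g', hg', hgY⟩ := hY
  refine ⟨by rw [add_mul, mul_add, mul_add, hXX, hYY, h1, h2]; simp, g * g', mul_mem hg hg', ?_⟩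
  rw [Units.val_mul, hgX, hgY, add_mul, one_mul, mul_add, mul_one, h1]
  abel

lemma Good.conj (h : Good M X) {g : GL (Fin t → Fin k) F} (hg : g ∈ M) :
    Good M ((g : Mt) * X * ((g⁻¹ : GL (Fin t → Fin k) F) : Mt)) := by
  obtain ⟨hX, z, hz, hzX⟩ := h
  refine ⟨?_, g * z * g⁻¹, mul_mem (mul_mem hg hz) (inv_mem hg), ?_⟩
  · calc _ = (g : Mt) * X * (((g⁻¹ : GL (Fin t → Fin k) F) : Mt) * (g : Mt)) * X *
          ((g⁻¹ : GL (Fin t → Fin k) F) : Mt) := by simp only [mul_assoc]
      _ = 0 := by rw [Units.inv_mul, mul_one, mul_assoc (g : Mt) X X, hX, mul_zero, zero_mul]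
  · rw [Units.val_mul, Units.val_mul, hzX, mul_add, mul_one, add_mul, Units.mul_inv]

/-- Brackets of elements whose triple products vanish. -/
lemma Good.bracket (hX : Good M X) (hY : Good M Y) (h1 : X * Y * X = 0) (h2 : Y * X * Y = 0) :
    Good M (X * Y - Y * X) := by
  obtain ⟨hXX, g, hg, hgX⟩ := hX
  obtain ⟨hYY, g', hg', hgY⟩ := hY
  refine ⟨?_, g * g' * g⁻¹ * g'⁻¹,
    mul_mem (mul_mem (mul_mem hg hg') (inv_mem hg)) (inv_mem hg'), ?_⟩
  · rw [sub_mul, mul_sub, mul_sub, ← mul_assoc (X * Y) X Y, h1, ← mul_assoc (Y * X) Y X, h2,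
      mul_assoc X Y (Y * X), ← mul_assoc Y Y X, hYY, mul_assoc Y X (X * Y), ← mul_assoc X X Y, hXX]
    simp
  · rw [Units.val_mul, Units.val_mul, Units.val_mul, inv_val_of hXX hgX, inv_val_of hYY hgY, hgX,
      hgY]
    have e1 : (1 + X) * (1 + Y) * (1 - X) = 1 + Y + (X * Y - Y * X) := by
      calc (1 + X) * (1 + Y) * (1 - X) = 1 + Y + (X * Y - Y * X) - X * X - X * Y * X := by
            noncomm_ring
        _ = _ := by rw [hXX, h1, sub_zero, sub_zero]
    rw [e1]
    calc (1 + Y + (X * Y - Y * X)) * (1 - Y)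
          = 1 + (X * Y - Y * X) - Y * Y - X * (Y * Y) + Y * X * Y := by noncomm_ring
      _ = _ := by rw [hYY, h2, mul_zero, sub_zero, sub_zero, add_zero]

lemma Ex.smul {a : F} (ha : a ≠ 0) : Ex M (a • X) ↔ Ex M X := by
  constructor
  · rintro ⟨c, hc, h⟩
    exact ⟨c * a, mul_ne_zero hc ha, by rwa [← smul_smul]⟩
  · rintro ⟨c, hc, h⟩
    exact ⟨c * a⁻¹, mul_ne_zero hc (inv_ne_zero ha), by
      rwa [smul_smul, mul_assoc, inv_mul_cancel₀ ha, mul_one]⟩

lemma Ex.bracket (hX : Ex M X) (hY : Ex M Y) (h1 : X * Y * X = 0) (h2 : Y * X * Y = 0) :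
    Ex M (X * Y - Y * X) := by
  obtain ⟨a, ha, hX⟩ := hX
  obtain ⟨b, hb, hY⟩ := hY
  refine ⟨a * b, mul_ne_zero ha hb, ?_⟩
  have h := hX.bracket hY (by simp [h1]) (by simp [h2])
  simpa [smul_sub, mul_comm b a, smul_smul] using h

variable (hD : D.IsSymp) (hM : Over D M)
include hD hM

lemma Over.tr_mem (j : Fin t) (v : Fin k → F) (a : F) :
    D.tr j (u := v) (by exact hD.symp_f1.alternating v) a ∈ M :=
  hM.ge ⟨D.tr_mem_wreath j _ a, D.tr_mem_isom j _ (by rw [hD.id]; rfl)⟩

/-- Second and first differences of the conjugates by a factorwise transvection. -/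
lemma Over.differences {i j : Fin t} (hij : i ≠ j) {R : Mk} (hR : R * R = 0) {Z : Mt}
    (hZ : SlotFree i Z) (h : Ex M (slot i R * Z)) (v : Fin k → F) :
    Ex M (slot j (D.rk1 v v) * (slot i R * Z) * slot j (D.rk1 v v)) ∧
    Ex M (slot j (D.rk1 v v) * (slot i R * Z) - slot i R * Z * slot j (D.rk1 v v)) := by
  obtain ⟨c, hc, hB⟩ := h
  set N : Mt := slot j (D.rk1 v v) with hN
  have hN2 : N * N = 0 := by rw [hN, ← map_mul, hD.rk1_mul_self, map_zero]
  set B : Mt := c • (slot i R * Z) with hBdef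
  have hv : D.f1 v v = 0 := hD.symp_f1.alternating v
  set e := D.tr j hv 1 with he
  have heval : (e : Mt) = 1 + N := by rw [he, D.tr_val, one_smul, hD.nilSlot_eq]
  have heM : e ∈ M := hM.tr_mem hD j v 1
  have hinv : ((e⁻¹ : GL (Fin t → Fin k) F) : Mt) = 1 - N := inv_val_of hN2 heval
  have hp : Good M (B + (N * B - B * N) - N * B * N) := by
    have := hB.conj heM
    rw [heval, hinv] at this
    convert this using 1
    noncomm_ring
  have hm : Good M (B - (N * B - B * N) - N * B * N) := by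
    have := hB.conj (inv_mem heM)
    rw [inv_inv, heval, hinv] at this
    convert this using 1
    noncomm_ring
  have hNf : SlotFree i N := SlotFree.slot hij _
  have hprod : ∀ U W : Mt, (∃ U', SlotFree i U' ∧ U = slot i R * U') →
      (∃ W', SlotFree i W' ∧ W = slot i R * W') → U * W = 0 := by
    rintro _ _ ⟨U', hU', rfl⟩ ⟨W', hW', rfl⟩
    rw [mul_assoc, ← mul_assoc U', ← hU', ← mul_assoc, ← mul_assoc, ← map_mul, hR, map_zero,
      zero_mul, zero_mul]
  have fB : ∃ U', SlotFree i U' ∧ B = slot i R * U' :=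
    ⟨c • Z, hZ.smul c, by rw [Matrix.mul_smul]⟩
  have fN : ∀ U : Mt, (∃ U', SlotFree i U' ∧ U = slot i R * U') →
      (∃ U', SlotFree i U' ∧ N * U = slot i R * U') ∧ (∃ U', SlotFree i U' ∧ U * N = slot i R * U') := by
    rintro _ ⟨U', hU', rfl⟩
    exact ⟨⟨N * U', hNf.mul hU', by rw [← mul_assoc, ← hNf, mul_assoc]⟩,
      ⟨U' * N, hU'.mul hNf, by rw [mul_assoc]⟩⟩
  have fs : ∀ U W : Mt, (∃ U', SlotFree i U' ∧ U = slot i R * U') →
      (∃ W', SlotFree i W' ∧ W = slot i R * W') →
      (∃ U', SlotFree i U' ∧ U + W = slot i R * U') ∧ (∃ U', SlotFree i U' ∧ U - W = slot i R * U') := by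
    rintro _ _ ⟨U', hU', rfl⟩ ⟨W', hW', rfl⟩
    exact ⟨⟨U' + W', fun A => by rw [mul_add, add_mul, hU', hW'], by rw [mul_add]⟩,
      ⟨U' - W', hU'.sub hW', by rw [mul_sub]⟩⟩
  have fd := (fs _ _ (fN _ fB).1 (fN _ fB).2).2
  have fq := (fN _ (fN _ fB).1).2
  have fp := (fs _ _ (fs _ _ fB fd).1 fq).2
  have fm := (fs _ _ (fs _ _ fB fd).2 fq).2
  have fnB : ∃ U', SlotFree i U' ∧ -B = slot i R * U' := by
    obtain ⟨U', hU', hBU⟩ := fB
    exact ⟨(-1 : F) • U', hU'.smul _, by rw [hBU]; simp⟩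
  have h2 := hD.two
  constructor
  · have h2B : Good M (-B + -B) := hB.neg.add hB.neg (hprod _ _ fnB fnB) (hprod _ _ fnB fnB)
    have f2B := (fs _ _ fnB fnB).1
    have h1 := hp.add hm (hprod _ _ fp fm) (hprod _ _ fm fp)
    have f1 := (fs _ _ fp fm).1
    have := h1.add h2B (hprod _ _ f1 f2B) (hprod _ _ f2B f1)
    refine ⟨-(2 * c), neg_ne_zero.mpr (mul_ne_zero h2 hc), ?_⟩
    convert this using 1
    rw [hBdef]
    simp only [Matrix.mul_smul, Matrix.smul_mul, mul_assoc]
    module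
  · have fnm : ∃ U', SlotFree i U' ∧
        -(B - (N * B - B * N) - N * B * N) = slot i R * U' := by
      obtain ⟨U', hU', hBU⟩ := fm
      exact ⟨(-1 : F) • U', hU'.smul _, by rw [hBU]; simp⟩
    have := hp.add hm.neg (hprod _ _ fp fnm) (hprod _ _ fnm fp)
    refine ⟨2 * c, mul_ne_zero h2 hc, ?_⟩
    convert this using 1
    rw [hBdef]
    simp only [Matrix.mul_smul, Matrix.smul_mul, mul_assoc]
    module

/-- Compression at several positions. -/
lemma Over.compress {l : Fin t} {R : Mk} (hR : R * R = 0) {Z : Mt} (hZ : SlotFree l Z)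
    (h : Ex M (slot l R * Z)) (z : Fin t → Fin k → F) (S : Finset (Fin t)) (hl : l ∉ S) :
    Ex M (pureMat (fun j => if j ∈ S then D.rk1 (z j) (z j) else 1) * (slot l R * Z) *
      pureMat (fun j => if j ∈ S then D.rk1 (z j) (z j) else 1)) := by
  induction S using Finset.induction_on with
  | empty =>
    have : pureMat (fun _ : Fin t => (1 : Mk)) = 1 := pureMat_one
    simpa [this] using h
  | insert j S hj ih =>
    rw [Finset.mem_insert, not_or] at hl
    set P : Mt := pureMat (fun j => if j ∈ S then D.rk1 (z j) (z j) else 1) with hP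
    set Pj : Mt := pureMat (fun l => if l ∈ insert j S then D.rk1 (z l) (z l) else 1) with hPj
    have hPl : SlotFree l P := SlotFree.pureMat (by simp [hl.2])
    have e1 : Pj = slot j (D.rk1 (z j) (z j)) * P := by
      rw [hP, slot_mul_pureMat, hPj]
      congr 1
      funext l
      by_cases h : l = j
      · subst h; simp [hj]
      · simp [h]
    have e2 : Pj = P * slot j (D.rk1 (z j) (z j)) := by
      rw [e1, (SlotFree.pureMat (i := j) (by simp [hj]) : SlotFree j P)]
    have hre : P * (slot l R * Z) * P = slot l R * (P * Z * P) := by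
      rw [← mul_assoc, ← hPl, mul_assoc, mul_assoc, mul_assoc]
    have := (hM.differences hD hl.1 hR ((hPl.mul hZ).mul hPl) (hre ▸ ih hl.2) (z j)).1
    rw [← hre] at this
    nth_rewrite 1 [e1]
    rw [e2]
    simpa only [mul_assoc] using this

set_option maxHeartbeats 1000000 in
/-- The bracket of two products of factors, compressed at some positions. -/
lemma Over.op {f f' G : Fin t → Mk} {s ε : Fin t → F} (z : Fin t → Fin k → F) {S : Finset (Fin t)}
    {l : Fin t} (hl : l ∉ S) (hX : Ex M (pureMat f)) (hX' : Ex M (pureMat f'))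
    (h1 : ∃ j, f j * f' j * f j = 0) (h2 : ∃ j, f' j * f j * f' j = 0)
    (hS : ∀ j ∈ S, D.rk1 (z j) (z j) * (f j * f' j) * D.rk1 (z j) (z j) = s j • G j ∧
      D.rk1 (z j) (z j) * (f' j * f j) * D.rk1 (z j) (z j) = (ε j * s j) • G j)
    (hn : ∀ j ∉ S, f j * f' j = s j • G j ∧ f' j * f j = (ε j * s j) • G j)
    (hG : G l * G l = 0) (hs : ∀ j, s j ≠ 0) (hε : ∏ j, ε j = -1) : Ex M (pureMat G) := by
  have zero_of : ∀ {g : Fin t → Mk}, (∃ j, g j = 0) → pureMat g = 0 := fun {g} ⟨j, hj⟩ => by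
    rw [pureMat_eq_slot_mul g j, hj, map_zero, zero_mul]
  have hbr := hX.bracket hX' (by rw [← pureMat_mul, ← pureMat_mul]; exact zero_of h1)
    (by rw [← pureMat_mul, ← pureMat_mul]; exact zero_of h2)
  obtain ⟨e1, e2⟩ := hn l hl
  set Z : Mt := s l • pureMat (Function.update (f * f') l 1) -
    (ε l * s l) • pureMat (Function.update (f' * f) l 1) with hZ
  have hform : pureMat f * pureMat f' - pureMat f' * pureMat f = slot l (G l) * Z := by
    rw [← pureMat_mul, ← pureMat_mul, pureMat_eq_slot_mul (f * f') l,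
      pureMat_eq_slot_mul (f' * f) l, Pi.mul_apply, Pi.mul_apply, e1, e2, map_smul, map_smul,
      hZ, mul_sub, Matrix.mul_smul, Matrix.mul_smul, Matrix.smul_mul, Matrix.smul_mul]
  rw [hform] at hbr
  have hZf : SlotFree l Z := ((SlotFree.pureMat (by simp)).smul _).sub
    ((SlotFree.pureMat (by simp)).smul _)
  have hc := hM.compress hD hG hZf hbr z S hl
  rw [← hform, mul_sub, sub_mul, ← pureMat_mul, ← pureMat_mul, ← pureMat_mul, ← pureMat_mul,
    ← pureMat_mul, ← pureMat_mul] at hc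
  set P : Fin t → Mk := fun j => if j ∈ S then D.rk1 (z j) (z j) else 1 with hP
  have hA : P * (f * f') * P = fun j => s j • G j := by
    funext j
    by_cases hj : j ∈ S
    · simp [hP, hj, (hS j hj).1]
    · simp [hP, hj, (hn j hj).1]
  have hB : P * (f' * f) * P = fun j => (ε j * s j) • G j := by
    funext j
    by_cases hj : j ∈ S
    · simp [hP, hj, (hS j hj).2]
    · simp [hP, hj, (hn j hj).2]
  rw [hA, hB, pureMat_smul, pureMat_smul, Finset.prod_mul_distrib, hε, ← sub_smul] at hc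
  exact (Ex.smul (by
    rw [neg_one_mul, sub_neg_eq_add, ← two_mul]
    exact mul_ne_zero hD.two (Finset.prod_ne_zero_iff.mpr fun j _ => hs j))).mp hc

end CfsgLib.Geometric.TensorForm
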