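import Cfsg.Agent.Lib.Geometric.TensorForm.Symplectic

/-!
# Shears of one factor

For a factor of dimension at least four, two square-zero operators of a slot orthogonal to a vector
`u` multiply to multiples of the standard operator at `u`.
-/

set_option autoImplicit false

namespace CfsgLib.Geometric.TensorForm

open scoped Matrix MatrixGroups
open Matrix CfsgLib.SmallDim Cfsg.Geo

variable {k t : ℕ} {F : Type*} [Field F]

local notation "Mt" => Matrix (Fin t → Fin k) (Fin t → Fin k) F

namespace Datum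

variable {D : Datum k F}

/-- The polarised standard operator. -/
def shear (D : Datum k F) (u w : Fin k → F) : Matrix (Fin k) (Fin k) F :=
  vecMulVec u (D.J *ᵥ w) + vecMulVec w (D.J *ᵥ u)

lemma IsSymp.shear_nil_eq (hD : D.IsSymp) (u : Fin k → F) : D.nil u = vecMulVec u (D.J *ᵥ u) := by
  rw [Datum.nil, hD.id]; rfl

lemma IsSymp.shear_eq (hD : D.IsSymp) (u w : Fin k → F) :
    D.shear u w = D.nil (u + w) - D.nil u - D.nil w := by
  rw [hD.shear_nil_eq, hD.shear_nil_eq, hD.shear_nil_eq, shear, Matrix.mulVec_add, Matrix.vecMulVec_add,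
    Matrix.add_vecMulVec, Matrix.add_vecMulVec]
  abel

lemma IsSymp.shear_vec_mul (hD : D.IsSymp) (a b c d : Fin k → F) :
    vecMulVec a (D.J *ᵥ b) * vecMulVec c (D.J *ᵥ d) = D.f1 c b • vecMulVec a (D.J *ᵥ d) := by
  rw [Matrix.vecMulVec_mul_vecMulVec, Matrix.vecMulVec_smul, hD.f1_eq, dotProduct_comm]

/-- Shears at a vector: two square-zero operators multiplying to the standard one. -/
theorem IsSymp.exists_shear (hD : D.IsSymp) (hk : 4 ≤ k) (i : Fin t) {u : Fin k → F} (hu : u ≠ 0) :
    ∃ (S S' : Mt) (κ : F), κ ≠ 0 ∧ S * S = 0 ∧ S' * S' = 0 ∧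
      D.nilSlot i u * S = 0 ∧ S * D.nilSlot i u = 0 ∧
      D.nilSlot i u * S' = 0 ∧ S' * D.nilSlot i u = 0 ∧
      S * S' = κ • D.nilSlot i u ∧ S' * S = (-κ) • D.nilSlot i u ∧
      ∀ a : F,
        (∃ g ∈ tensorWreathStandard k t F ⊓ D.isom t, (g : Mt) = 1 + a • S) ∧
        ∃ g ∈ tensorWreathStandard k t F ⊓ D.isom t, (g : Mt) = 1 + a • S' := by
  have hs := hD.symp_f1
  have hb := hs.bilinear
  have h0 : ∀ x, D.f1 x x = 0 := hs.alternating
  obtain ⟨v₀, hv₀⟩ := (hs.nondegenerate u hu).1
  set v := (D.f1 v₀ u)⁻¹ • v₀ with hv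
  have hvu : D.f1 v u = 1 := by rw [hv, D.f1_smul_left, inv_mul_cancel₀ hv₀]
  let φ : (Fin k → F) →ₗ[F] F × F :=
    { toFun := fun x => (D.f1 x u, D.f1 x v)
      map_add' := fun x y => by simp [D.f1_add_left]
      map_smul' := fun c x => by simp [D.f1_smul_left] }
  have hker : LinearMap.ker φ ≠ ⊥ := fun h => by
    have := LinearMap.finrank_le_finrank_of_injective (LinearMap.ker_eq_bot.1 h)
    rw [Module.finrank_fin_fun, Module.finrank_prod, Module.finrank_self] at this
    omega
  obtain ⟨w, hw, hw0⟩ := Submodule.exists_mem_ne_zero_of_ne_bot hker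
  obtain ⟨hwu, hwv⟩ : D.f1 w u = 0 ∧ D.f1 w v = 0 := Prod.mk_eq_zero.1 hw
  obtain ⟨y, hy⟩ := (hs.nondegenerate w hw0).1
  set w' := y + (-D.f1 y u) • v with hw'
  have hw'u : D.f1 w' u = 0 := by
    rw [hw', D.f1_add_left, D.f1_smul_left, hvu]; ring
  have hsk := hs.skew
  have hw'w : D.f1 w' w = D.f1 y w := by
    rw [hw', D.f1_add_left, D.f1_smul_left, hsk v w, hwv]; ring
  have huw : D.f1 u w = 0 := by rw [hsk, hwu, neg_zero]
  have huw' : D.f1 u w' = 0 := by rw [hsk, hw'u, neg_zero]
  have hP : ∀ z, D.f1 z u = 0 → D.f1 u z = 0 →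
      D.shear u z * D.shear u z = 0 ∧ D.nil u * D.shear u z = 0 ∧ D.shear u z * D.nil u = 0 := by
    intro z hzu huz
    refine ⟨?_, ?_, ?_⟩ <;>
      simp only [shear, hD.shear_nil_eq, mul_add, add_mul, hD.shear_vec_mul, h0, hzu, huz, zero_smul,
        add_zero]
  obtain ⟨e1, e2, e3⟩ := hP w hwu huw
  obtain ⟨e1', e2', e3'⟩ := hP w' hw'u huw'
  refine ⟨slot i (D.shear u w), slot i (D.shear u w'), D.f1 w' w, by rw [hw'w]; exact hy,
    by rw [← map_mul, e1, map_zero], by rw [← map_mul, e1', map_zero],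
    by rw [nilSlot, ← map_mul, e2, map_zero], by rw [nilSlot, ← map_mul, e3, map_zero],
    by rw [nilSlot, ← map_mul, e2', map_zero], by rw [nilSlot, ← map_mul, e3', map_zero],
    ?_, ?_, fun a => ?_⟩
  · rw [nilSlot, ← map_mul, ← map_smul]
    congr 1
    simp only [shear, hD.shear_nil_eq, mul_add, add_mul, hD.shear_vec_mul, h0, hwu, hw'u, huw, huw',
      zero_smul, add_zero, zero_add]
  · rw [nilSlot, ← map_mul, ← map_smul]
    congr 1
    simp only [shear, hD.shear_nil_eq, mul_add, add_mul, hD.shear_vec_mul, h0, hwu, hw'u, huw, huw',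
      zero_smul, add_zero, zero_add, hsk w w']
  have key : ∀ z, D.shear u z * D.shear u z = 0 →
      ∃ g ∈ tensorWreathStandard k t F ⊓ D.isom t, (g : Mt) = 1 + a • slot i (D.shear u z) := by
    intro z hz
    have hsq : slot (t := t) i (D.shear u z) * slot i (D.shear u z) = 0 := by
      rw [← map_mul, hz, map_zero]
    refine ⟨unip (a • slot i (D.shear u z)) (smul_sq hsq a), Subgroup.mem_inf.2 ⟨?_, ?_⟩, rfl⟩
    · have hb' : (a • D.shear u z) * (a • D.shear u z) = 0 := by
        rw [Matrix.smul_mul, Matrix.mul_smul, hz, smul_zero, smul_zero]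
      let b : GL (Fin k) F :=
        { val := 1 + a • D.shear u z
          inv := 1 - a • D.shear u z
          val_inv := by rw [add_mul, one_mul, mul_sub, mul_one, hb', sub_zero, sub_add_cancel]
          inv_val := by rw [sub_mul, one_mul, mul_add, mul_one, hb', add_zero, add_sub_cancel_right] }
      refine Subgroup.subset_closure (Or.inl ⟨Pi.mulSingle i b, fun x y => ?_⟩)
      rw [unip_val, ← map_smul, ← map_one (slot (F := F) (k := k) i), ← map_add, slot_apply,
        pureMat, Matrix.of_apply]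
      refine Finset.prod_congr rfl fun j _ => ?_
      by_cases hj : j = i
      · subst hj; simp [b]
      · simp [Pi.mulSingle_eq_of_ne hj]
    · rw [D.mem_isom, unip_val]
      refine D.one_add_smul_isometry ?_ hsq (by rw [hD.id]; rfl)
      have hn := fun p => D.nilSlot_skew (t := t) i p
      simp only [IsSkew, nilSlot] at hn ⊢
      rw [hD.shear_eq, map_sub, map_sub, Matrix.transpose_sub, Matrix.transpose_sub,
        Matrix.map_sub _ (map_sub D.σ), Matrix.map_sub _ (map_sub D.σ), sub_mul, sub_mul, mul_sub,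
        mul_sub, hn, hn, hn]
      abel
  exact ⟨key w e1, key w' e1'⟩

end Datum

end CfsgLib.Geometric.TensorForm
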