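import Cfsg.Agent.Lib.Geometric.TensorForm.Compress
import Cfsg.Agent.Lib.Geometric.TensorForm.Descent
import Cfsg.Agent.Lib.Geometric.TensorForm.GrowStep
import Cfsg.Agent.Lib.Geometric.TensorForm.Shear

/-!
An overgroup of the stabiliser of an odd tensor power of an alternating form which is not inside
the wreath product has a non-scalar element in the corner of a factorwise transvection.
-/

set_option autoImplicit false
set_option linter.unusedSectionVars false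

namespace CfsgLib.Geometric.TensorForm

open Matrix CfsgLib.SmallDim Cfsg.Geo
open scoped MatrixGroups

variable {k t : ℕ} {F : Type*} [Field F] {D : Datum k F}

local notation "Mt" => Matrix (Fin t → Fin k) (Fin t → Fin k) F

/-- A factorwise transvection is a root. -/
lemma Over.root_nilSlot (hD : D.IsSymp) {M : Subgroup (GL (Fin t → Fin k) F)} (hM : Over D M)
    (i : Fin t) (u : Fin k → F) : Root F M (D.nilSlot i u) :=
  ⟨D.nilSlot_mul_self (hD.symp_f1.alternating u),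
    fun a => ⟨_, hM.tr_mem hD i u a, D.tr_val i _ a⟩⟩

/-- Conjugates of roots are roots. -/
lemma Root.conj_unit {A : Type*} [Ring A] [Algebra F A] {M : Subgroup Aˣ} {N : A}
    (hN : Root F M N) {g : Aˣ} (hg : g ∈ M) : Root F M ((g : A) * N * ((g⁻¹ : Aˣ) : A)) := by
  refine ⟨?_, fun a => ?_⟩
  · rw [show (g : A) * N * ((g⁻¹ : Aˣ) : A) * ((g : A) * N * ((g⁻¹ : Aˣ) : A)) =
      (g : A) * (N * (((g⁻¹ : Aˣ) : A) * (g : A)) * N) * ((g⁻¹ : Aˣ) : A) by noncomm_ring,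
      Units.inv_mul, mul_one, hN.sq, mul_zero, zero_mul]
  · obtain ⟨x, hx, hxe⟩ := hN.mem a
    refine ⟨g * x * g⁻¹, mul_mem (mul_mem hg hx) (inv_mem hg), ?_⟩
    rw [Units.val_mul, Units.val_mul, hxe, mul_add, mul_one, add_mul, Units.mul_inv,
      mul_smul_comm, smul_mul_assoc]

/-- The corner element. -/
theorem exists_corner [Finite F] (hD : D.IsSymp) (hk : 2 ≤ k) (ht : 0 < t)
    (hex : Nat.card F = 3 → 4 ≤ k) {M : Subgroup (GL (Fin t → Fin k) F)} (hM : Over D M)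
    (hnot : ¬ M ≤ tensorWreathStandard k t F) :
    ∃ (i : Fin t) (u : Fin k → F) (A₀ : Mt), u ≠ 0 ∧
      (∃ g ∈ M, (g : Mt) = 1 + D.nilSlot i u * A₀ * D.nilSlot i u) ∧
      ¬ ∃ c : F, D.nilSlot i u * A₀ * D.nilSlot i u = c • D.nilSlot i u := by
  obtain ⟨g, hg, hgH⟩ := SetLike.not_le_iff_exists.mp hnot
  by_cases hc : ∀ i j u v, ∃ c : F,
      D.nilSlot i u * ((g : Mt) * D.nilSlot j v * ((g⁻¹ : GL (Fin t → Fin k) F) : Mt)) *
        D.nilSlot i u = c • D.nilSlot i u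
  · exact absurd (Datum.mem_wreath_of_compress D hD.id hD.two hk ht (hM.le hg) hc) hgH
  push Not at hc
  obtain ⟨i, j, u, v, hns⟩ := hc
  have hu : u ≠ 0 := by
    rintro rfl
    refine hns 0 ?_
    simp [Datum.nilSlot, Datum.nil]
  refine ⟨i, u, ?_⟩
  have hN := hM.root_nilSlot hD i u
  have hsh : Nat.card F = 3 → ∃ (S S' : Mt) (κ : F), κ ≠ 0 ∧ Root F M S ∧ Root F M S' ∧
      D.nilSlot i u * S = 0 ∧ S * D.nilSlot i u = 0 ∧ D.nilSlot i u * S' = 0 ∧
      S' * D.nilSlot i u = 0 ∧ S * S' = κ • D.nilSlot i u ∧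
      S' * S = (-κ) • D.nilSlot i u := fun h3 => by
    obtain ⟨S, S', κ, hκ, s1, s2, a1, a2, a3, a4, a5, a6, hm⟩ :=
      hD.exists_shear (t := t) (hex h3) i hu
    exact ⟨S, S', κ, hκ, ⟨s1, fun a => (hm a).1.imp fun g h => ⟨hM.ge h.1, h.2⟩⟩,
      ⟨s2, fun a => (hm a).2.imp fun g h => ⟨hM.ge h.1, h.2⟩⟩, a1, a2, a3, a4, a5, a6⟩
  obtain ⟨A₀, h1, h2⟩ := exists_big_of_not_isScal hD.two hN hsh
    ((hM.root_nilSlot hD j v).conj_unit hg) (fun ⟨c, hc⟩ => hns c hc)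
  exact ⟨A₀, hu, h1, h2⟩

end CfsgLib.Geometric.TensorForm
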