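import Cfsg.Agent.Lib.SmallDim.SympPure

/-!
# Tensor powers of a form: the standard coordinates

A reflexive form on `F^k` with Gram matrix `J` is normalised to be skew-hermitian for an involutive
ring endomorphism `σ` (`σ = id` for alternating forms). Its tensor power on the functions
`Fin t → Fin k` has Gram matrix `pureMat fun _ => J`; isotropic vectors of the factor give square-zero
skew-adjoint operators `nilSlot` and the factorwise transvections `tr`.
-/

set_option autoImplicit false
set_option linter.style.haveILetI false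
set_option linter.unusedSectionVars false

namespace CfsgLib.Geometric.TensorForm

open scoped Matrix MatrixGroups
open Matrix CfsgLib.SmallDim Cfsg.Geo

/-- A non-degenerate skew-hermitian Gram matrix on `F^k`. -/
structure Datum (k : ℕ) (F : Type*) [Field F] where
  J : Matrix (Fin k) (Fin k) F
  σ : F →+* F
  invol : ∀ a, σ (σ a) = a
  skew : Jᵀ = -(J.map σ)
  det : J.det ≠ 0

variable {k t : ℕ} {F : Type*} [Field F]

local notation "Mk" => Matrix (Fin k) (Fin k) F
local notation "Mt" => Matrix (Fin t → Fin k) (Fin t → Fin k) F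

/-! ## The algebra of one factor -/

lemma pureMat_update_add (f : Fin t → Mk) (i : Fin t) (a b : Mk) :
    pureMat (Function.update f i (a + b)) =
      pureMat (Function.update f i a) + pureMat (Function.update f i b) := by
  ext x y
  have h : ∀ c, (fun j => Function.update f i c j (x j) (y j)) =
      Function.update (fun j => f j (x j) (y j)) i (c (x i) (y i)) :=
    fun c => funext fun j => Function.apply_update (fun j (w : Mk) => w (x j) (y j)) f i c j
  simp only [pureMat, Matrix.of_apply, Matrix.add_apply, h,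
    Finset.prod_update_of_mem (Finset.mem_univ i), add_mul]

lemma pureMat_update_smul (f : Fin t → Mk) (i : Fin t) (s : F) (a : Mk) :
    pureMat (Function.update f i (s • a)) = s • pureMat (Function.update f i a) := by
  ext x y
  have h : ∀ c, (fun j => Function.update f i c j (x j) (y j)) =
      Function.update (fun j => f j (x j) (y j)) i (c (x i) (y i)) :=
    fun c => funext fun j => Function.apply_update (fun j (w : Mk) => w (x j) (y j)) f i c j
  simp only [pureMat, Matrix.of_apply, Matrix.smul_apply, smul_eq_mul, h,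
    Finset.prod_update_of_mem (Finset.mem_univ i), mul_assoc]

/-- The operator algebra of the factor at position `i`. -/
def slot (i : Fin t) : Mk →ₐ[F] Mt :=
  AlgHom.ofLinearMap
    { toFun := fun A => pureMat (Pi.mulSingle i A)
      map_add' := fun a b => pureMat_update_add 1 i a b
      map_smul' := fun s a => pureMat_update_smul 1 i s a }
    (by
      show pureMat (Pi.mulSingle i (1 : Mk)) = (1 : Mt)
      rw [Pi.mulSingle_one, pureMat_one])
    (fun a b => by
      show pureMat _ = pureMat _ * pureMat _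
      rw [Pi.mulSingle_mul, pureMat_mul])

lemma slot_apply (i : Fin t) (A : Mk) : slot i A = pureMat (Pi.mulSingle i A) := rfl

lemma slot_commute {i j : Fin t} (h : i ≠ j) (A B : Mk) : slot i A * slot j B = slot j B * slot i A := by
  rw [slot_apply, slot_apply, ← pureMat_mul, ← pureMat_mul]
  exact congrArg pureMat (Pi.mulSingle_commute (f := fun _ => Mk) h A B).eq

lemma slot_mulVec (i : Fin t) (A : Mk) (v : Fin t → Fin k → F) :
    slot i A *ᵥ pureTensorVec v = pureTensorVec (Function.update v i (A *ᵥ v i)) := by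
  rw [slot_apply, pureMat_mulVec]
  congr 1
  funext j
  by_cases h : j = i
  · subst h; simp
  · simp [Pi.mulSingle_eq_of_ne h, Function.update_of_ne h]

lemma ext_pure {X Y : Mt} (h : ∀ v, X *ᵥ pureTensorVec v = Y *ᵥ pureTensorVec v) : X = Y :=
  Matrix.ext_of_mulVec_single fun a => by rw [← pureVec_single]; exact h _

lemma pureMat_map (τ : F →+* F) (f : Fin t → Mk) :
    (pureMat f).map τ = pureMat fun i => (f i).map τ := by
  ext x y
  simp [pureMat, map_prod]

lemma pureMat_neg_one_pow (f : Fin t → Mk) :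
    pureMat (fun i => -f i) = (-1 : F) ^ t • pureMat f := by
  have := pureMat_smul (fun _ : Fin t => (-1 : F)) f
  simpa using this

lemma slot_transpose (i : Fin t) (A : Mk) : (slot i A)ᵀ = slot i Aᵀ := by
  rw [slot_apply, slot_apply, pureMat_transpose]
  congr 1
  funext j
  by_cases h : j = i
  · subst h; simp
  · simp [Pi.mulSingle_eq_of_ne h]

lemma slot_map (τ : F →+* F) (i : Fin t) (A : Mk) : (slot i A).map τ = slot i (A.map τ) := by
  rw [slot_apply, slot_apply, pureMat_map]
  congr 1
  funext j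
  by_cases h : j = i
  · subst h; simp
  · simp [Pi.mulSingle_eq_of_ne h, Matrix.map_one]

/-! ## The factor form -/

namespace Datum

variable (D : Datum k F)

/-- The form on `F^k`: linear in the first argument. -/
def f1 (x y : Fin k → F) : F := x ⬝ᵥ (D.J *ᵥ (D.σ ∘ y))

/-- The operator `x ↦ f1 x u • u`. -/
def nil (u : Fin k → F) : Mk := vecMulVec u (D.J *ᵥ (D.σ ∘ u))

/-- The Gram matrix of the tensor power. -/
def gram (t : ℕ) : Matrix (Fin t → Fin k) (Fin t → Fin k) F := pureMat fun _ => D.J

/-- A matrix is skew-adjoint for the tensor power. -/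
def IsSkew (X : Mt) : Prop := Xᵀ * D.gram t = -(D.gram t * X.map D.σ)

variable (t) in
/-- The isometries of the tensor power. -/
def isom : Subgroup (GL (Fin t → Fin k) F) where
  carrier := {g | (g : Mt)ᵀ * D.gram t * (g : Mt).map D.σ = D.gram t}
  one_mem' := by simp [Matrix.map_one]
  mul_mem' {a b} ha hb := by
    show ((a * b : GL _ F) : Mt)ᵀ * _ * ((a * b : GL _ F) : Mt).map D.σ = _
    rw [Units.val_mul, Matrix.transpose_mul, Matrix.map_mul]
    calc _ = (b : Mt)ᵀ * ((a : Mt)ᵀ * D.gram t * (a : Mt).map D.σ) * (b : Mt).map D.σ := by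
          simp only [mul_assoc]
      _ = D.gram t := by rw [ha, hb]
  inv_mem' {a} ha := by
    show ((a⁻¹ : GL _ F) : Mt)ᵀ * _ * ((a⁻¹ : GL _ F) : Mt).map D.σ = _
    have h1 : ((a⁻¹ : GL _ F) : Mt)ᵀ * (a : Mt)ᵀ = 1 := by
      rw [← Matrix.transpose_mul, Units.mul_inv, Matrix.transpose_one]
    have h2 : (a : Mt).map D.σ * ((a⁻¹ : GL _ F) : Mt).map D.σ = 1 := by
      rw [← Matrix.map_mul, Units.mul_inv, Matrix.map_one _ (map_zero _) (map_one _)]
    conv_lhs => rw [← (show (a : Mt)ᵀ * D.gram t * (a : Mt).map D.σ = D.gram t from ha)]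
    calc _ = (((a⁻¹ : GL _ F) : Mt)ᵀ * (a : Mt)ᵀ) * D.gram t *
          ((a : Mt).map D.σ * ((a⁻¹ : GL _ F) : Mt).map D.σ) := by simp only [mul_assoc]
      _ = D.gram t := by rw [h1, h2, one_mul, mul_one]

lemma mem_isom {g : GL (Fin t → Fin k) F} :
    g ∈ D.isom t ↔ (g : Mt)ᵀ * D.gram t * (g : Mt).map D.σ = D.gram t := Iff.rfl

lemma f1_add_left (x x' y : Fin k → F) : D.f1 (x + x') y = D.f1 x y + D.f1 x' y := add_dotProduct _ _ _

lemma f1_smul_left (c : F) (x y : Fin k → F) : D.f1 (c • x) y = c * D.f1 x y := smul_dotProduct c _ _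

lemma f1_zero_left (y : Fin k → F) : D.f1 0 y = 0 := zero_dotProduct _

lemma f1_add_right (x y y' : Fin k → F) : D.f1 x (y + y') = D.f1 x y + D.f1 x y' := by
  have : D.σ ∘ (y + y') = D.σ ∘ y + D.σ ∘ y' := funext fun i => map_add D.σ _ _
  rw [f1, this, Matrix.mulVec_add, dotProduct_add]
  rfl

lemma f1_smul_right (c : F) (x y : Fin k → F) : D.f1 x (c • y) = D.σ c * D.f1 x y := by
  have : (D.σ ∘ (c • y)) = D.σ c • (D.σ ∘ y) := funext fun i => by simp
  rw [f1, this, Matrix.mulVec_smul, dotProduct_smul, smul_eq_mul]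
  rfl

lemma f1_swap (x y : Fin k → F) : D.f1 y x = -D.σ (D.f1 x y) := by
  have hσ : ∀ v : Fin k → F, D.σ ∘ (D.σ ∘ v) = v := fun v => funext fun i => D.invol _
  have h1 : D.σ (D.f1 x y) = (D.σ ∘ x) ⬝ᵥ (D.J.map D.σ *ᵥ y) := by
    rw [f1, RingHom.map_dotProduct]
    congr 1
    funext i
    rw [Function.comp_apply, RingHom.map_mulVec, hσ]
  rw [h1, show D.J.map D.σ = -D.Jᵀ by rw [D.skew, neg_neg], Matrix.neg_mulVec, dotProduct_neg,
    neg_neg, Matrix.mulVec_transpose, dotProduct_comm, ← Matrix.dotProduct_mulVec, f1]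

lemma nil_mulVec (u x : Fin k → F) : D.nil u *ᵥ x = D.f1 x u • u := by
  rw [nil, Matrix.vecMulVec_mulVec, f1, dotProduct_comm x]
  simp

lemma nil_mul_mul (u : Fin k → F) (A : Mk) : D.nil u * A * D.nil u = D.f1 (A *ᵥ u) u • D.nil u := by
  rw [nil, Matrix.mul_assoc, Matrix.mul_vecMulVec, Matrix.vecMulVec_mul_vecMulVec,
    Matrix.vecMulVec_smul, f1, dotProduct_comm]

lemma nil_mul_self {u : Fin k → F} (hu : D.f1 u u = 0) : D.nil u * D.nil u = 0 := by
  have h := D.nil_mul_mul u 1
  rwa [mul_one, Matrix.one_mulVec, hu, zero_smul] at h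

lemma nil_transpose_mul (u : Fin k → F) : (D.nil u)ᵀ * D.J = -(D.J * (D.nil u).map D.σ) := by
  have hmap : (D.nil u).map D.σ = vecMulVec (D.σ ∘ u) (D.J.map D.σ *ᵥ u) := by
    ext a b
    simp only [nil, Matrix.map_apply, Matrix.vecMulVec_apply, map_mul, Function.comp_apply,
      RingHom.map_mulVec]
    congr 2
    funext i
    exact D.invol _
  rw [hmap, nil, Matrix.transpose_vecMulVec, Matrix.vecMulVec_mul, Matrix.mul_vecMulVec,
    show D.J.map D.σ = -D.Jᵀ by rw [D.skew, neg_neg], Matrix.neg_mulVec, Matrix.mulVec_transpose,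
    Matrix.vecMulVec_neg, neg_neg]

lemma gram_transpose : (D.gram t)ᵀ = (-1 : F) ^ t • (D.gram t).map D.σ := by
  rw [gram, pureMat_transpose, pureMat_map, ← pureMat_neg_one_pow]
  exact congrArg pureMat (funext fun _ => D.skew)

lemma gram_det : (D.gram t).det ≠ 0 := by
  intro h
  have hu : IsUnit D.J.det := isUnit_iff_ne_zero.mpr D.det
  have h1 : D.gram t * pureMat (fun _ => D.J⁻¹) = 1 := by
    rw [gram, ← pureMat_mul, ← pureMat_one]
    exact congrArg pureMat (funext fun _ => Matrix.mul_nonsing_inv _ hu)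
  have := congrArg Matrix.det h1
  rw [Matrix.det_mul, h, zero_mul, Matrix.det_one] at this
  exact zero_ne_one this

/-- The square-zero operator attached to an isotropic vector at position `i`. -/
def nilSlot (i : Fin t) (u : Fin k → F) : Mt := slot i (D.nil u)

lemma nilSlot_mul_self {i : Fin t} {u : Fin k → F} (hu : D.f1 u u = 0) :
    D.nilSlot i u * D.nilSlot i u = 0 := by
  rw [nilSlot, ← map_mul, D.nil_mul_self hu, map_zero]

lemma nilSlot_skew (i : Fin t) (u : Fin k → F) : D.IsSkew (D.nilSlot i u) := by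
  unfold IsSkew nilSlot
  rw [slot_transpose, slot_map, slot_apply, slot_apply, gram, ← pureMat_mul, ← pureMat_mul]
  have hf : ∀ A : Mk, Pi.mulSingle i A * (fun _ : Fin t => D.J) =
      Function.update (fun _ : Fin t => D.J) i (A * D.J) := fun A => funext fun j => by
    by_cases h : j = i
    · subst h; simp
    · simp [Pi.mulSingle_eq_of_ne h, Function.update_of_ne h]
  have hg : ∀ A : Mk, (fun _ : Fin t => D.J) * Pi.mulSingle i A =
      Function.update (fun _ : Fin t => D.J) i (D.J * A) := fun A => funext fun j => by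
    by_cases h : j = i
    · subst h; simp
    · simp [Pi.mulSingle_eq_of_ne h, Function.update_of_ne h]
  rw [hf, hg, D.nil_transpose_mul, ← neg_one_smul F (D.J * _), pureMat_update_smul, neg_one_smul]

/-- A skew-adjoint square-zero operator gives isometries. -/
lemma one_add_smul_isometry {X : Mt} (hX : D.IsSkew X) (h0 : X * X = 0) {a : F} (ha : D.σ a = a) :
    (1 + a • X)ᵀ * D.gram t * (1 + a • X).map D.σ = D.gram t := by
  have hs : (a • X).map D.σ = a • X.map D.σ := by
    ext p q; simp [map_mul, ha]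
  have hX' : Xᵀ * D.gram t = -(D.gram t * X.map D.σ) := hX
  have hsq : Xᵀ * D.gram t * X.map D.σ = 0 := by
    rw [hX', neg_mul, mul_assoc, ← Matrix.map_mul, h0, Matrix.map_zero _ (map_zero _), mul_zero,
      neg_zero]
  rw [Matrix.transpose_add, Matrix.transpose_one, Matrix.transpose_smul,
    Matrix.map_add _ (map_add D.σ), Matrix.map_one _ (map_zero _) (map_one _), hs, add_mul,
    one_mul, Matrix.smul_mul, add_mul, mul_add, mul_add, mul_one, mul_one, Matrix.mul_smul,
    Matrix.smul_mul, Matrix.mul_smul, hsq, hX', smul_zero, smul_zero, add_zero, smul_neg]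
  abel

/-- The unit `1 + X` of a square-zero operator. -/
def unip {t : ℕ} (X : Matrix (Fin t → Fin k) (Fin t → Fin k) F) (h : X * X = 0) : GL (Fin t → Fin k) F where
  val := 1 + X
  inv := 1 - X
  val_inv := by rw [add_mul, one_mul, mul_sub, mul_one, h, sub_zero, sub_add_cancel]
  inv_val := by rw [sub_mul, one_mul, mul_add, mul_one, h, add_zero, add_sub_cancel_right]

@[simp] lemma unip_val (X : Mt) (h : X * X = 0) : (unip X h : Mt) = 1 + X := rfl

lemma smul_sq {X : Mt} (h : X * X = 0) (a : F) : (a • X) * (a • X) = 0 := by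
  rw [Matrix.smul_mul, Matrix.mul_smul, h, smul_zero, smul_zero]

/-- The factorwise transvection `1 + a • nilSlot i u`. -/
def tr (i : Fin t) {u : Fin k → F} (hu : D.f1 u u = 0) (a : F) : GL (Fin t → Fin k) F :=
  unip (a • D.nilSlot i u) (smul_sq (D.nilSlot_mul_self hu) a)

lemma tr_val (i : Fin t) {u : Fin k → F} (hu : D.f1 u u = 0) (a : F) :
    (D.tr i hu a : Mt) = 1 + a • D.nilSlot i u := rfl

lemma tr_mem_isom (i : Fin t) {u : Fin k → F} (hu : D.f1 u u = 0) {a : F} (ha : D.σ a = a) :
    D.tr i hu a ∈ D.isom t := by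
  rw [mem_isom, tr_val]
  exact D.one_add_smul_isometry (D.nilSlot_skew i u) (D.nilSlot_mul_self hu) ha

lemma tr_mem_wreath (i : Fin t) {u : Fin k → F} (hu : D.f1 u u = 0) (a : F) :
    D.tr i hu a ∈ tensorWreathStandard k t F := by
  have hb : (a • D.nil u) * (a • D.nil u) = 0 := by
    rw [Matrix.smul_mul, Matrix.mul_smul, D.nil_mul_self hu, smul_zero, smul_zero]
  let b : GL (Fin k) F :=
    { val := 1 + a • D.nil u
      inv := 1 - a • D.nil u
      val_inv := by rw [add_mul, one_mul, mul_sub, mul_one, hb, sub_zero, sub_add_cancel]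
      inv_val := by rw [sub_mul, one_mul, mul_add, mul_one, hb, add_zero, add_sub_cancel_right] }
  refine Subgroup.subset_closure (Or.inl ⟨Pi.mulSingle i b, fun x y => ?_⟩)
  have h : (D.tr i hu a : Mt) = pureMat (Pi.mulSingle i (b : Mk)) := by
    rw [tr_val, ← slot_apply, show (b : Mk) = 1 + a • D.nil u from rfl, map_add, map_one, map_smul]
    rfl
  rw [h, pureMat, Matrix.of_apply]
  refine Finset.prod_congr rfl fun j _ => ?_
  by_cases hj : j = i
  · subst hj; simp
  · simp [Pi.mulSingle_eq_of_ne hj]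

end Datum

end CfsgLib.Geometric.TensorForm
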