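import Cfsg.Agent.Lib.Geometric.TensorForm.Basic

/-!
Compression criterion: an isometry of a tensor power of a symplectic form lies in the wreath
product as soon as the conjugates of the standard square-zero elements compress, between two
standard ones of one factor, to multiples of the standard one.
-/

set_option autoImplicit false

namespace CfsgLib.Geometric.TensorForm

open scoped Matrix
open Matrix Cfsg.Geo CfsgLib.SmallDim

variable {F : Type*} [Field F] {t k : ℕ}

local notation "Mk" => Matrix (Fin k) (Fin k) F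
local notation "Mt" => Matrix (Fin t → Fin k) (Fin t → Fin k) F

/-- A matrix acting in one factor. -/
def slotMat (i : Fin t) (A : Mk) : Mt := pureMat (Function.update 1 i A)

/-- The square-zero element of a vector. -/
def nilMat (J : Mk) (u : Fin k → F) : Mk := Matrix.vecMulVec u (J *ᵥ u)

/-- The entries outside one factor. -/
def restProd (J : Mk) (i : Fin t) (x y : Fin t → Fin k) : F :=
  ∏ l ∈ Finset.univ.erase i, J (x l) (y l)

lemma slotMat_one (i : Fin t) : slotMat i (1 : Mk) = 1 := by
  rw [slotMat, ← pureMat_one]; congr 1; exact Function.update_eq_self i 1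

lemma slotMat_mul (i : Fin t) (A B : Mk) : slotMat i (A * B) = slotMat i A * slotMat i B := by
  rw [slotMat, slotMat, slotMat, ← pureMat_mul]
  congr 1; funext l
  by_cases h : l = i
  · subst h; simp
  · simp [Function.update_of_ne h]

lemma pureMat_update_apply (f : Fin t → Mk) (i : Fin t) (A : Mk) (x y : Fin t → Fin k) :
    pureMat (Function.update f i A) x y =
      A (x i) (y i) * ∏ l ∈ Finset.univ.erase i, f l (x l) (y l) := by
  rw [pureMat, Matrix.of_apply, ← Finset.mul_prod_erase _ _ (Finset.mem_univ i),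
    Function.update_self]
  congr 1
  refine Finset.prod_congr rfl fun l hl => ?_
  rw [Function.update_of_ne (Finset.ne_of_mem_erase hl)]

lemma slotMat_add (i : Fin t) (A B : Mk) : slotMat i (A + B) = slotMat i A + slotMat i B := by
  ext x y
  rw [Matrix.add_apply, slotMat, slotMat, slotMat, pureMat_update_apply, pureMat_update_apply,
    pureMat_update_apply, Matrix.add_apply, add_mul]

lemma slotMat_smul (i : Fin t) (c : F) (A : Mk) : slotMat i (c • A) = c • slotMat i A := by
  ext x y
  rw [Matrix.smul_apply, slotMat, slotMat, pureMat_update_apply, pureMat_update_apply,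
    Matrix.smul_apply, smul_eq_mul, smul_eq_mul, mul_assoc]

lemma slotMat_comm {i j : Fin t} (hij : i ≠ j) (A B : Mk) :
    slotMat i A * slotMat j B = slotMat j B * slotMat i A := by
  rw [slotMat, slotMat, ← pureMat_mul, ← pureMat_mul]
  congr 1; funext l
  by_cases h : l = i
  · subst h; simp [Function.update_of_ne hij]
  · simp [Function.update_of_ne h]

lemma slotMat_zero (i : Fin t) : slotMat i (0 : Mk) = 0 := by
  have := slotMat_smul i (0 : F) (0 : Mk)
  simpa using this

lemma slotMat_inj [NeZero k] {i : Fin t} {A B : Mk} (h : slotMat i A = slotMat i B) : A = B := by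
  ext a b
  have e := congrFun (congrFun h (Function.update (fun _ => 0) i a))
    (Function.update (fun _ => 0) i b)
  simp only [slotMat, pureMat_update_apply, Function.update_self, Pi.one_apply] at e
  rw [Finset.prod_congr rfl (g := fun _ => (1 : F)) fun l hl => by
    rw [Function.update_of_ne (Finset.ne_of_mem_erase hl),
      Function.update_of_ne (Finset.ne_of_mem_erase hl), Matrix.one_apply_eq],
    Finset.prod_const_one, mul_one, mul_one] at e
  exact e

lemma slotMat_mul_apply (i : Fin t) (A : Mk) (X : Mt) (x y : Fin t → Fin k) :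
    (slotMat i A * X) x y = ∑ s, A (x i) s * X (Function.update x i s) y := by
  rw [Matrix.mul_apply]
  refine (Finset.sum_of_injOn (fun s => Function.update x i s) ?_ (fun _ _ => Finset.mem_coe.2
    (Finset.mem_univ _)) ?_ fun s _ => ?_).symm
  · intro a _ b _ hab; simpa using congrFun hab i
  · intro z _ hz
    obtain ⟨l, hl⟩ := Function.ne_iff.1 (show z ≠ Function.update x i (z i) from fun e =>
      hz ⟨z i, Finset.mem_coe.2 (Finset.mem_univ _), e.symm⟩)
    have hli : l ≠ i := fun e => hl (by subst e; simp)
    rw [Function.update_of_ne hli] at hl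
    rw [slotMat, pureMat_update_apply, Finset.prod_eq_zero (Finset.mem_erase.2 ⟨hli,
      Finset.mem_univ l⟩) (show (1 : Fin t → Mk) l (x l) (z l) = 0 from
      Matrix.one_apply_ne (Ne.symm hl)), mul_zero, zero_mul]
  · rw [slotMat, pureMat_update_apply, Function.update_self, Finset.prod_eq_one fun l hl => by
      rw [Function.update_of_ne (Finset.ne_of_mem_erase hl), Pi.one_apply, Matrix.one_apply_eq],
      mul_one]

lemma mul_slotMat_apply (i : Fin t) (A : Mk) (X : Mt) (x y : Fin t → Fin k) :
    (X * slotMat i A) x y = ∑ s, X x (Function.update y i s) * A s (y i) := by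
  rw [Matrix.mul_apply]
  refine (Finset.sum_of_injOn (fun s => Function.update y i s) ?_ (fun _ _ => Finset.mem_coe.2
    (Finset.mem_univ _)) ?_ fun s _ => ?_).symm
  · intro a _ b _ hab; simpa using congrFun hab i
  · intro z _ hz
    obtain ⟨l, hl⟩ := Function.ne_iff.1 (show z ≠ Function.update y i (z i) from fun e =>
      hz ⟨z i, Finset.mem_coe.2 (Finset.mem_univ _), e.symm⟩)
    have hli : l ≠ i := fun e => hl (by subst e; simp)
    rw [Function.update_of_ne hli] at hl
    rw [slotMat, pureMat_update_apply, Finset.prod_eq_zero (Finset.mem_erase.2 ⟨hli,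
      Finset.mem_univ l⟩) (show (1 : Fin t → Mk) l (z l) (y l) = 0 from
      Matrix.one_apply_ne hl), mul_zero, mul_zero]
  · rw [slotMat, pureMat_update_apply, Function.update_self, Finset.prod_eq_one fun l hl => by
      rw [Function.update_of_ne (Finset.ne_of_mem_erase hl), Pi.one_apply, Matrix.one_apply_eq],
      mul_one]

section Form

variable {J : Matrix (Fin k) (Fin k) F} (hJt : Jᵀ = -J)
include hJt

lemma dot_J (u v : Fin k → F) : u ⬝ᵥ J *ᵥ v = -(v ⬝ᵥ J *ᵥ u) := by
  rw [Matrix.dotProduct_mulVec, ← Matrix.mulVec_transpose, hJt, Matrix.neg_mulVec, neg_dotProduct,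
    dotProduct_comm]

lemma restProd_swap (i : Fin t) (x y : Fin t → Fin k) :
    restProd J i y x = (-1) ^ (t - 1) * restProd J i x y := by
  simp only [restProd]
  rw [ Finset.prod_congr rfl fun l _ => show J (y l) (x l) = -1 * J (x l) (y l) by
    rw [← Matrix.transpose_apply J, hJt, Matrix.neg_apply]; ring, Finset.prod_mul_distrib,
    Finset.prod_const, Finset.card_erase_of_mem (Finset.mem_univ i), Finset.card_univ,
    Fintype.card_fin]

variable (h2 : (2 : F) ≠ 0)
include h2

/-- A skew element compressing to multiples in every factor is a sum of elements of one factor. -/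
theorem exists_sum_slot (hJ : J.det ≠ 0) {X : Mt}
    (hX : Xᵀ * pureMat (fun _ => J) + pureMat (fun _ => J) * X = 0)
    (hc : ∀ (i : Fin t) (u : Fin k → F), ∃ c : F,
      slotMat i (nilMat J u) * X * slotMat i (nilMat J u) = c • slotMat i (nilMat J u)) :
    ∃ x : Fin t → Mk, (∀ i, (J * x i)ᵀ = J * x i) ∧ X = ∑ i, slotMat i (x i) := by
  classical
  set B : Mt := pureMat (fun _ => J) with hB
  set Y := B * X with hY
  have hJu : ∀ u : Fin k → F, u ≠ 0 → J *ᵥ u ≠ 0 := fun u hu e =>
    hu (Matrix.eq_zero_of_mulVec_eq_zero hJ e)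
  have hBi : ∀ (i : Fin t) (A : Mk),
      slotMat i A * B = pureMat (Function.update (fun _ => J) i (A * J)) := by
    intro i A
    rw [slotMat, hB, ← pureMat_mul]
    congr 1; funext l
    by_cases h : l = i
    · subst h; simp
    · simp [Function.update_of_ne h]
  have hBr : ∀ (i : Fin t) (A : Mk), pureMat (Function.update (fun _ => J) i 1) * slotMat i A =
      pureMat (Function.update (fun _ => J) i A) := by
    intro i A
    rw [slotMat, ← pureMat_mul]
    congr 1; funext l
    by_cases h : l = i
    · subst h; simp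
    · simp [Function.update_of_ne h]
  -- the quadratic form of a factor is a multiple of the other factors
  have hq : ∀ (i : Fin t) (u : Fin k → F), ∃ C : F, ∀ x y,
      ∑ s, ∑ s', u s * u s' * Y (Function.update x i s) (Function.update y i s') =
        C * restProd J i x y := by
    intro i u
    by_cases hu : u = 0
    · exact ⟨0, fun x y => by simp [hu]⟩
    obtain ⟨c, hc⟩ := hc i u
    refine ⟨-c, fun x y => ?_⟩
    obtain ⟨a, ha⟩ := Function.ne_iff.1 hu
    obtain ⟨b, hb⟩ := Function.ne_iff.1 (hJu u hu)
    have huu : Matrix.vecMulVec u u * J = -nilMat J u := by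
      rw [nilMat, Matrix.vecMulVec_mul, ← Matrix.mulVec_transpose, hJt, Matrix.neg_mulVec,
        Matrix.vecMulVec_neg]
    have key : slotMat i (Matrix.vecMulVec u u) * Y * slotMat i (nilMat J u) =
        (-c) • pureMat (Function.update (fun _ => J) i (nilMat J u)) := by
      have e : slotMat i (Matrix.vecMulVec u u) * B =
          -(pureMat (Function.update (fun _ => J) i 1) * slotMat i (nilMat J u)) := by
        rw [hBi, hBr, huu]
        ext p r
        rw [Matrix.neg_apply, pureMat_update_apply, pureMat_update_apply, Matrix.neg_apply, neg_mul]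
      rw [hY, ← mul_assoc, e, Matrix.neg_mul, Matrix.neg_mul, mul_assoc, mul_assoc,
        ← mul_assoc (slotMat i (nilMat J u)), hc, Matrix.mul_smul, hBr, neg_smul]
    have e := congrFun (congrFun key (Function.update x i a)) (Function.update y i b)
    rw [mul_slotMat_apply, Matrix.smul_apply, pureMat_update_apply, Function.update_self,
      Function.update_self] at e
    simp only [slotMat_mul_apply, Function.update_self, Function.update_idem, nilMat,
      Matrix.vecMulVec_apply, Finset.sum_mul] at e
    rw [Finset.sum_comm] at e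
    rw [show (∏ l ∈ Finset.univ.erase i, J (Function.update x i a l) (Function.update y i b l)) =
      restProd J i x y from Finset.prod_congr rfl fun l hl => by
        rw [Function.update_of_ne (Finset.ne_of_mem_erase hl),
          Function.update_of_ne (Finset.ne_of_mem_erase hl)]] at e
    refine mul_left_cancel₀ (mul_ne_zero ha hb) ?_
    simp only [Pi.zero_apply] at ha hb
    rw [Finset.mul_sum, smul_eq_mul] at *
    simp only [Finset.mul_sum] at e ⊢
    calc _ = _ := Finset.sum_congr rfl fun s _ => Finset.sum_congr rfl fun s' _ => by ring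
      _ = _ := e
      _ = _ := by ring
  choose Cq hCq using hq
  let C : Fin t → Fin k → Fin k → F := fun i a b =>
    Cq i (Pi.single a (1 : F) + Pi.single b (1 : F)) - Cq i (Pi.single a (1 : F)) -
      Cq i (Pi.single b (1 : F))
  have hCsym : ∀ i a b, C i a b = C i b a := fun i a b => by
    simp only [C, add_comm (Pi.single a (1 : F) : Fin k → F)]; ring
  have hpol : ∀ i x y, Y x y + Y (Function.update x i (y i)) (Function.update y i (x i)) =
      C i (x i) (y i) * restProd J i x y := by
    intro i x y
    simp only [C, sub_mul, ← hCq, Pi.add_apply, add_mul, mul_add, Finset.sum_add_distrib,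
      Pi.single_apply, ite_mul, mul_ite, one_mul, mul_one, zero_mul, mul_zero,
      Finset.sum_ite_eq', Finset.mem_univ, if_true, Function.update_eq_self]
    ring
  have hr : ∀ {i j : Fin t}, i ≠ j → ∀ x y : Fin t → Fin k,
      restProd J i (Function.update x j (y j)) (Function.update y j (x j)) = -restProd J i x y := by
    intro i j hij x y
    have hm : j ∈ Finset.univ.erase i := Finset.mem_erase.2 ⟨Ne.symm hij, Finset.mem_univ _⟩
    rw [restProd, restProd, ← Finset.mul_prod_erase _ _ hm, ← Finset.mul_prod_erase _ _ hm,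
      Function.update_self, Function.update_self, Finset.prod_congr rfl fun l hl => by
        rw [Function.update_of_ne (Finset.ne_of_mem_erase hl),
          Function.update_of_ne (Finset.ne_of_mem_erase hl)],
      ← Matrix.transpose_apply J, hJt, Matrix.neg_apply, neg_mul]
  set T : (Fin t → Fin k) → (Fin t → Fin k) → F :=
    fun x y => Y x y - ∑ i, 2⁻¹ * C i (x i) (y i) * restProd J i x y with hT
  have hTswap : ∀ j x y, T (Function.update x j (y j)) (Function.update y j (x j)) = -T x y := by
    intro j x y
    simp only [hT]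
    rw [← Finset.add_sum_erase _ _ (Finset.mem_univ j), ← Finset.add_sum_erase _
      (fun i => 2⁻¹ * C i (x i) (y i) * restProd J i x y) (Finset.mem_univ j),
      Finset.sum_congr rfl fun i hi => show 2⁻¹ * C i (Function.update x j (y j) i)
          (Function.update y j (x j) i) *
          restProd J i (Function.update x j (y j)) (Function.update y j (x j)) =
          -(2⁻¹ * C i (x i) (y i) * restProd J i x y) by
        rw [Function.update_of_ne (Finset.ne_of_mem_erase hi),
          Function.update_of_ne (Finset.ne_of_mem_erase hi), hr (Finset.ne_of_mem_erase hi)]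
        ring,
      Finset.sum_neg_distrib, Function.update_self, Function.update_self, hCsym j (y j) (x j),
      show restProd J j (Function.update x j (y j)) (Function.update y j (x j)) = restProd J j x y from
        Finset.prod_congr rfl fun l hl => by
          rw [Function.update_of_ne (Finset.ne_of_mem_erase hl),
            Function.update_of_ne (Finset.ne_of_mem_erase hl)]]
    have := hpol j x y
    field_simp
    linear_combination 2 * this
  have hTall : ∀ (s : Finset (Fin t)) x y,
      T (s.piecewise y x) (s.piecewise x y) = (-1) ^ s.card * T x y := by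
    intro s
    induction s using Finset.induction_on with
    | empty => intro x y; simp
    | insert j s hj ih =>
      intro x y
      rw [Finset.piecewise_insert, Finset.piecewise_insert, Finset.card_insert_of_notMem hj]
      conv_lhs => rw [← Finset.piecewise_eq_of_notMem s x y hj,
        ← Finset.piecewise_eq_of_notMem s y x hj]
      rw [hTswap, ih]
      ring
  have hYs : ∀ x y, Y y x = -((-1) ^ t * Y x y) := by
    intro x y
    have hBt : Bᵀ = (-1 : F) ^ t • B := by
      rw [hB, pureMat_transpose, show (fun _ : Fin t => Jᵀ) = fun _ => (-1 : F) • J from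
        funext fun _ => by rw [hJt, neg_one_smul], pureMat_smul]
      simp
    have e : Yᵀ = -((-1 : F) ^ t • Y) := by
      rw [hY, Matrix.transpose_mul, hBt, Matrix.mul_smul, eq_neg_iff_add_eq_zero, ← smul_add, hX,
        smul_zero]
    simpa using congrFun (congrFun e x) y
  have hT0 : ∀ x y, T x y = 0 := by
    intro x y
    by_cases ht : t = 0
    · subst ht
      have e := hTall ∅ x y
      have hxy : x = y := funext fun l => l.elim0
      subst hxy
      have := hYs x x
      simp only [hT, Finset.univ_eq_empty, Finset.sum_empty, sub_zero]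
      refine (mul_eq_zero.1 (show 2 * Y x x = 0 by linear_combination this)).resolve_left h2
    have e := hTall Finset.univ x y
    simp only [Finset.piecewise_univ, Finset.card_univ, Fintype.card_fin] at e
    have e' : T y x = -((-1) ^ t * T x y) := by
      simp only [hT, hYs x y, restProd_swap hJt _ x y, mul_sub, Finset.mul_sum, neg_sub]
      rw [show (∑ i, (-1) ^ t * (2⁻¹ * C i (x i) (y i) * restProd J i x y)) =
        -∑ i, 2⁻¹ * C i (y i) (x i) * ((-1) ^ (t - 1) * restProd J i x y) by
        rw [← Finset.sum_neg_distrib]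
        refine Finset.sum_congr rfl fun i _ => ?_
        rw [hCsym i (y i) (x i)]
        rw [show (-1 : F) ^ t = (-1) ^ (t - 1) * -1 by
          rw [← pow_succ, show t - 1 + 1 = t by omega]]
        ring]
      ring
    rw [e'] at e
    refine (mul_eq_zero.1 (show (2 * (-1) ^ t) * T x y = 0 by linear_combination -e)).resolve_left ?_
    exact mul_ne_zero h2 (pow_ne_zero _ (neg_ne_zero.2 one_ne_zero))
  have hu : IsUnit J.det := isUnit_iff_ne_zero.2 hJ
  refine ⟨fun i => J⁻¹ * Matrix.of fun a b => 2⁻¹ * C i a b, fun i => ?_, ?_⟩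
  · rw [Matrix.mul_nonsing_inv_cancel_left _ _ hu]
    ext a b; simp [hCsym i a b]
  · have hinv : pureMat (fun _ : Fin t => J⁻¹) * B = 1 := by
      rw [hB, ← pureMat_mul, show ((fun _ : Fin t => J⁻¹) * fun _ => J) = 1 from
        funext fun _ => Matrix.nonsing_inv_mul J hu, pureMat_one]
    rw [← one_mul X, ← hinv, mul_assoc, ← hY]
    conv_rhs => rw [← one_mul (∑ i, _), ← hinv, mul_assoc]
    congr 1
    ext x y
    rw [Finset.mul_sum, Matrix.sum_apply]
    rw [sub_eq_zero.1 (hT0 x y)]
    refine Finset.sum_congr rfl fun i _ => ?_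
    rw [show B * slotMat i (J⁻¹ * Matrix.of fun a b => 2⁻¹ * C i a b) =
        pureMat (Function.update (fun _ => J) i (Matrix.of fun a b => 2⁻¹ * C i a b)) by
      rw [hB, slotMat, ← pureMat_mul]
      congr 1; funext l
      by_cases h : l = i
      · subst h; simp [Matrix.mul_nonsing_inv_cancel_left _ _ hu]
      · simp [Function.update_of_ne h], pureMat_update_apply, Matrix.of_apply]
    rfl

omit h2

/-- A square-zero sum of elements of one factor has one term. -/
theorem exists_single (h2 : (2 : F) ≠ 0) (hJ : J.det ≠ 0) (ht : 0 < t) [NeZero k]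
    {x : Fin t → Mk} (hx : ∀ i, (J * x i)ᵀ = J * x i)
    (hsq : (∑ i, slotMat i (x i)) * ∑ i, slotMat i (x i) = 0) :
    ∃ i : Fin t, ∑ l, slotMat l (x l) = slotMat i (x i) := by
  classical
  -- a scalar term vanishes
  have hscal : ∀ l, (∀ w : Mk →ₗ[F] F, w 1 = 0 → w (x l) = 0) → x l = 0 := by
    intro l hl
    have hd : x l = x l 0 0 • 1 := by
      ext a b
      by_cases hab : a = b
      · subst hab
        have := hl (Matrix.entryLinearMap F F a a - Matrix.entryLinearMap F F 0 0) (by simp)
        simpa [sub_eq_zero] using this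
      · have := hl (Matrix.entryLinearMap F F a b) (by simp [hab])
        simpa [Matrix.one_apply_ne hab] using this
    have e := hx l
    rw [hd, Matrix.mul_smul, mul_one, Matrix.transpose_smul, hJt, smul_neg] at e
    obtain ⟨a, b, hab⟩ : ∃ a b, J a b ≠ 0 := by
      by_contra! h0
      exact hJ (by rw [show J = 0 from Matrix.ext h0, Matrix.det_zero])
    have := congrFun (congrFun e a) b
    simp only [Matrix.neg_apply, Matrix.smul_apply, smul_eq_mul] at this
    rw [hd, (mul_eq_zero.1 ((mul_eq_zero.1 (show 2 * (x l 0 0 * J a b) = 0 by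
      linear_combination -this)).resolve_left h2)).resolve_right hab, zero_smul]
  by_cases hone : ∀ i j, x i ≠ 0 → x j ≠ 0 → i = j
  · by_cases h0 : ∀ l, x l = 0
    · exact ⟨⟨0, ht⟩, by simp [h0, slotMat_zero]⟩
    push Not at h0
    obtain ⟨i, hi⟩ := h0
    refine ⟨i, Finset.sum_eq_single i (fun l _ hli => ?_) (by simp)⟩
    rw [show x l = 0 from by_contra fun hl => hli (hone l i hl hi), slotMat_zero]
  push Not at hone
  obtain ⟨i, j, hi, hj, hij⟩ := hone
  exfalso
  obtain ⟨φ, hφ1, hφ⟩ : ∃ w : Mk →ₗ[F] F, w 1 = 0 ∧ w (x i) ≠ 0 := by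
    by_contra! h0; exact hi (hscal i h0)
  obtain ⟨ψ, hψ1, hψ⟩ : ∃ w : Mk →ₗ[F] F, w 1 = 0 ∧ w (x j) ≠ 0 := by
    by_contra! h0; exact hj (hscal j h0)
  have hentry : ∀ (w : Mk →ₗ[F] F) (A : Mk), w A = ∑ a, ∑ b, A a b * w (Matrix.single a b 1) := by
    intro w A
    conv_lhs => rw [Matrix.matrix_eq_sum_single A]
    simp only [map_sum]
    refine Finset.sum_congr rfl fun a _ => Finset.sum_congr rfl fun b _ => ?_
    rw [← mul_one (A a b), ← smul_eq_mul, ← Matrix.smul_single, map_smul, smul_eq_mul,
      smul_eq_mul, mul_one]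
  set c : Fin t → Fin k := fun _ => 0
  let pt : Fin k → Fin k → Fin t → Fin k := fun a a' => Function.update (Function.update c i a) j a'
  let Φ : Mt →ₗ[F] F := ∑ a, ∑ b, ∑ a', ∑ b',
    (φ (Matrix.single a b 1) * ψ (Matrix.single a' b' 1)) •
      Matrix.entryLinearMap F F (pt a a') (pt b b')
  have hΦ : ∀ f : Fin t → Mk, Φ (pureMat f) =
      φ (f i) * ψ (f j) * ∏ l ∈ (Finset.univ.erase i).erase j, f l 0 0 := by
    intro f
    have hp : ∀ a a' b b', pureMat f (pt a a') (pt b b') =
        f i a b * f j a' b' * ∏ l ∈ (Finset.univ.erase i).erase j, f l 0 0 := by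
      intro a a' b b'
      rw [pureMat, Matrix.of_apply, ← Finset.mul_prod_erase _ _ (Finset.mem_univ i),
        ← Finset.mul_prod_erase _ _ (Finset.mem_erase.2 ⟨Ne.symm hij, Finset.mem_univ j⟩),
        mul_assoc]
      simp only [pt, Function.update_self, Function.update_of_ne hij]
      congr 2
      refine Finset.prod_congr rfl fun l hl => ?_
      simp only [Finset.mem_erase] at hl
      simp [Function.update_of_ne hl.1, Function.update_of_ne hl.2.1, c]
    simp only [Φ, LinearMap.sum_apply, LinearMap.smul_apply, Matrix.entryLinearMap_apply, hp,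
      smul_eq_mul]
    rw [hentry φ (f i), hentry ψ (f j)]
    simp only [Finset.sum_mul]
    simp only [Finset.mul_sum, Finset.sum_mul]
    refine Finset.sum_congr rfl fun a _ => Finset.sum_congr rfl fun b _ =>
      Finset.sum_congr rfl fun a' _ => Finset.sum_congr rfl fun b' _ => by ring
  have hterm : ∀ l l', Φ (slotMat l (x l) * slotMat l' (x l')) =
      if (l = i ∧ l' = j) ∨ (l = j ∧ l' = i) then φ (x i) * ψ (x j) else 0 := by
    intro l l'
    rw [slotMat, slotMat, ← pureMat_mul, hΦ]
    split_ifs with h
    · rw [Finset.prod_eq_one]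
      · rcases h with ⟨rfl, rfl⟩ | ⟨rfl, rfl⟩ <;>
          simp [Function.update_of_ne hij, Function.update_of_ne (Ne.symm hij)]
      · intro m hm
        simp only [Finset.mem_erase] at hm
        rcases h with ⟨rfl, rfl⟩ | ⟨rfl, rfl⟩ <;>
          simp [Function.update_of_ne hm.1, Function.update_of_ne hm.2.1]
    · by_cases hil : l = i ∨ l' = i
      · have : l ≠ j ∧ l' ≠ j := by
          rcases hil with rfl | rfl
          · exact ⟨hij, fun e => h (Or.inl ⟨rfl, e⟩)⟩
          · exact ⟨fun e => h (Or.inr ⟨e, rfl⟩), hij⟩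
        simp [Function.update_of_ne (Ne.symm this.1), Function.update_of_ne (Ne.symm this.2), hψ1]
      · push Not at hil
        simp [Function.update_of_ne (Ne.symm hil.1), Function.update_of_ne (Ne.symm hil.2), hφ1]
  have e := congrArg Φ hsq
  rw [map_zero, Finset.sum_mul] at e
  simp only [Finset.mul_sum, map_sum, hterm] at e
  rw [← Finset.sum_product', Finset.sum_ite, Finset.sum_const_zero, add_zero, Finset.sum_const,
    show ((Finset.univ ×ˢ Finset.univ).filter fun p : Fin t × Fin t =>
      (p.1 = i ∧ p.2 = j) ∨ (p.1 = j ∧ p.2 = i)) = {(i, j), (j, i)} by ext ⟨a, b⟩; simp,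
    Finset.card_pair (by simp [hij]), nsmul_eq_mul] at e
  exact mul_ne_zero h2 (mul_ne_zero hφ hψ) (by exact_mod_cast e)

end Form

/-- A matrix normalising the factors up to a permutation is in the wreath product. -/
theorem mem_of_maps_slots [NeZero k] (ht : 0 < t) {g : GL (Fin t → Fin k) F} {π : Equiv.Perm (Fin t)}
    (hg : ∀ j A, ∃ A', (g : Mt) * slotMat j A * ((g⁻¹ : GL _ F) : Mt) = slotMat (π j) A') :
    g ∈ tensorWreathStandard k t F := by
  classical
  set p : GL (Fin t → Fin k) F := factorPerm π with hp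
  have hpm : p ∈ tensorWreathStandard k t F :=
    Subgroup.subset_closure (Or.inr ⟨π, fun _ _ => rfl⟩)
  have hps : ∀ j A, (p : Mt) * slotMat j A * ((p⁻¹ : GL _ F) : Mt) = slotMat (π j) A := by
    intro j A
    rw [slotMat, hp, factorPerm_mul_pureMat, mul_assoc, Units.mul_inv, mul_one, slotMat]
    congr 1; funext l
    by_cases h : l = π j
    · subst h; simp
    · have hne : π.symm l ≠ j := fun e => h (by rw [← e, Equiv.apply_symm_apply])
      simp [Function.update_of_ne h, Function.update_of_ne hne]
  choose φ hφ using hg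
  set w : GL (Fin t → Fin k) F := p⁻¹ * g with hw
  have hws : ∀ j A, (w : Mt) * slotMat j A = slotMat j (φ j A) * (w : Mt) := by
    intro j A
    have e := (hφ j A).trans (hps j (φ j A)).symm
    calc (w : Mt) * slotMat j A
        = ((p⁻¹ : GL _ F) : Mt) * ((g : Mt) * slotMat j A * ((g⁻¹ : GL _ F) : Mt)) * g := by
          rw [hw, Units.val_mul]; simp [mul_assoc]
      _ = slotMat j (φ j A) * (w : Mt) := by rw [e, hw, Units.val_mul]; simp [← mul_assoc]
  have hprod : ∀ f : Fin t → Mk,
      (w : Mt) * pureMat f = pureMat (fun j => φ j (f j)) * (w : Mt) := by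
    intro f
    have : ∀ s : Finset (Fin t), (w : Mt) * pureMat (s.piecewise f 1) =
        pureMat (s.piecewise (fun j => φ j (f j)) 1) * (w : Mt) := by
      intro s
      induction s using Finset.induction_on with
      | empty => simp [pureMat_one]
      | insert j s hj ih =>
        have hsplit : ∀ h : Fin t → Mk, pureMat ((insert j s).piecewise h 1) =
            slotMat j (h j) * pureMat (s.piecewise h 1) := by
          intro h
          rw [slotMat, ← pureMat_mul]
          congr 1; funext l
          by_cases hl : l = j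
          · subst hl; simp [hj]
          · simp [Finset.piecewise, hl]
        rw [hsplit, hsplit, ← mul_assoc, hws, mul_assoc, ih, mul_assoc]
    simpa using this Finset.univ
  -- the image of the first basis vector
  set f₀ : Fin t → Mk := fun _ => Matrix.single 0 0 1 with hf₀
  set c₀ : Fin t → Fin k := fun _ => 0 with hc₀
  have hsingle : pureTensorVec (fun _ => (Pi.single 0 1 : Fin k → F)) = Pi.single c₀ (1 : F) :=
    pureVec_single c₀
  have hfix : ∀ f : Fin t → Fin k, pureMat (fun l => Matrix.single (f l) 0 (1 : F)) *ᵥ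
      pureTensorVec (fun _ => (Pi.single 0 1 : Fin k → F)) =
      pureTensorVec (fun l => (Pi.single (f l) 1 : Fin k → F)) := by
    intro f
    rw [pureMat_mulVec]
    congr 1; funext l
    ext a
    simp [Matrix.single_apply, Pi.single_apply, eq_comm]
  set v := (w : Mt) *ᵥ pureTensorVec (fun _ => (Pi.single 0 1 : Fin k → F)) with hv
  have hv0 : v ≠ 0 := by
    intro e
    have := congrArg (((w⁻¹ : GL _ F) : Mt) *ᵥ ·) e
    simp only [hv, Matrix.mulVec_mulVec, Units.inv_mul, Matrix.one_mulVec, Matrix.mulVec_zero,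
      hsingle] at this
    exact one_ne_zero (α := F) (by simpa using congrFun this c₀)
  obtain ⟨η, hη⟩ : ∃ η : Fin t → Fin k → F, v = pureTensorVec η := by
    have e : pureMat (fun j => φ j (f₀ j)) * (w : Mt) =
        (w : Mt) * Matrix.single c₀ c₀ 1 := by
      rw [← hprod]; congr 1
      ext x y
      simp only [pureMat, hf₀, Matrix.of_apply, Matrix.single_apply, hc₀, funext_iff,
        Fintype.prod_boole]
      congr 1
      exact propext ⟨fun h => ⟨fun l => (h l).1, fun l => (h l).2⟩, fun h l => ⟨h.1 l, h.2 l⟩⟩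
    -- a column of a rank one pure matrix
    have hcol : ∀ y, pureMat (fun j => φ j (f₀ j)) *ᵥ Pi.single y (1 : F) =
        ((w⁻¹ : GL _ F) : Mt) c₀ y • v := by
      intro y
      have e2 : pureMat (fun j => φ j (f₀ j)) =
          (w : Mt) * Matrix.single c₀ c₀ 1 * ((w⁻¹ : GL _ F) : Mt) := by
        rw [← e, mul_assoc, Units.mul_inv, mul_one]
      rw [e2, hv, hsingle, ← Matrix.mulVec_mulVec, ← Matrix.mulVec_mulVec, ← Matrix.mulVec_smul]
      congr 1
      ext x
      by_cases hx : x = c₀ <;>
        simp [Matrix.mulVec, dotProduct, Matrix.single_apply, Pi.single_apply, hx, eq_comm]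
    obtain ⟨y, hy⟩ : ∃ y, ((w⁻¹ : GL _ F) : Mt) c₀ y ≠ 0 := by
      by_contra! h0
      have := congrFun (congrFun (Units.inv_mul w) c₀) c₀
      rw [Matrix.mul_apply, Matrix.one_apply_eq, Finset.sum_eq_zero fun j _ => by rw [h0 j, zero_mul]] at this
      exact zero_ne_one this
    refine ⟨Function.update (fun l a => φ l (f₀ l) a (y l)) ⟨0, ht⟩
      ((((w⁻¹ : GL _ F) : Mt) c₀ y)⁻¹ • fun a => φ ⟨0, ht⟩ (f₀ ⟨0, ht⟩) a (y ⟨0, ht⟩)), ?_⟩
    rw [pureVec_update_smul, Function.update_eq_self_iff.2 rfl]
    refine (eq_inv_smul_iff₀ hy).2 ?_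
    rw [← hcol y, Matrix.mulVec_single_one]
    rfl
  have hw' : w ∈ tensorWreathStandard k t F := by
    let a : Fin t → Mk := fun l => Matrix.of fun r q => (φ l (Matrix.single q 0 1) *ᵥ η l) r
    have hwa : (w : Mt) = pureMat a := by
      refine Matrix.ext_of_mulVec_single fun q => ?_
      rw [← pureVec_single, ← hfix, Matrix.mulVec_mulVec, hprod, ← Matrix.mulVec_mulVec, ← hv, hη,
        hfix, pureMat_mulVec, pureMat_mulVec]
      congr 1; funext l r
      simp [a]
    have hdet : ∀ l, (a l).det ≠ 0 := by
      intro l hl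
      obtain ⟨z, hz, hz0⟩ := Matrix.exists_mulVec_eq_zero_iff.2 hl
      have e : (w : Mt) *ᵥ pureTensorVec (Function.update (fun _ => (Pi.single 0 1 : Fin k → F)) l z)
          = 0 := by
        rw [hwa, pureMat_mulVec]
        funext x
        refine Finset.prod_eq_zero (Finset.mem_univ l) ?_
        simp only [Function.update_self, hz0, Pi.zero_apply]
      have e2 := congrArg (((w⁻¹ : GL _ F) : Mt) *ᵥ ·) e
      simp only [Matrix.mulVec_mulVec, Units.inv_mul, Matrix.one_mulVec, Matrix.mulVec_zero] at e2
      obtain ⟨r, hr⟩ := Function.ne_iff.1 hz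
      have := congrFun e2 (Function.update c₀ l r)
      rw [pureTensorVec, Pi.zero_apply, Finset.prod_eq_zero_iff] at this
      obtain ⟨m, -, hm⟩ := this
      by_cases hml : m = l
      · subst hml; simp at hm; exact hr hm
      · simp [Function.update_of_ne hml, hc₀] at hm
    refine Subgroup.subset_closure (Or.inl ⟨fun l => Matrix.GeneralLinearGroup.mkOfDetNeZero (a l)
      (hdet l), fun x y => ?_⟩)
    exact congrFun (congrFun hwa x) y
  have := mul_mem hpm hw'
  rwa [hw, mul_inv_cancel_left] at this

/-- An isometry with compressed conjugates lies in the wreath product. -/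
theorem mem_wreath (ht : 0 < t) {J : Mk} (hJt : Jᵀ = -J) (hJ : J.det ≠ 0) (h2 : (2 : F) ≠ 0) (hk : 2 ≤ k)
    {g : GL (Fin t → Fin k) F}
    (hg : (g : Mt)ᵀ * pureMat (fun _ => J) * (g : Mt) = pureMat (fun _ => J))
    (hc : ∀ (i j : Fin t) (u v : Fin k → F), ∃ c : F,
      slotMat i (nilMat J u) * ((g : Mt) * slotMat j (nilMat J v) * ((g⁻¹ : GL _ F) : Mt)) *
        slotMat i (nilMat J u) = c • slotMat i (nilMat J u)) :
    g ∈ tensorWreathStandard k t F := by
  classical
  have : NeZero k := ⟨by omega⟩
  let Ad : Mt → Mt := fun A => (g : Mt) * A * ((g⁻¹ : GL _ F) : Mt)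
  have hAdm : ∀ A B, Ad (A * B) = Ad A * Ad B := fun A B => by simp [Ad, mul_assoc]
  have hAdi : Function.Injective Ad := fun A B h => by
    have := congrArg (fun C => ((g⁻¹ : GL _ F) : Mt) * C * (g : Mt)) h
    simpa [Ad, mul_assoc] using this
  have hself : ∀ u : Fin k → F, u ⬝ᵥ J *ᵥ u = 0 := fun u =>
    (mul_eq_zero.1 (show 2 * (u ⬝ᵥ J *ᵥ u) = 0 by linear_combination dot_J hJt u u)).resolve_left h2
  -- images of the standard elements
  have hone : ∀ j v, ∃ i A, Ad (slotMat j (nilMat J v)) = slotMat i A := by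
    intro j v
    set N := slotMat j (nilMat J v) with hN
    have hskew : Nᵀ * pureMat (fun _ => J) + pureMat (fun _ => J) * N = 0 := by
      have e1 : (nilMat J v)ᵀ * J = -(J * nilMat J v) := by
        rw [nilMat, Matrix.transpose_vecMulVec, Matrix.vecMulVec_mul, ← Matrix.mulVec_transpose,
          hJt, Matrix.neg_mulVec, Matrix.mul_vecMulVec, Matrix.vecMulVec_neg]
      rw [hN, slotMat, pureMat_transpose, ← pureMat_mul, ← pureMat_mul, add_eq_zero_iff_eq_neg]
      have e2 : ((fun l => (Function.update (1 : Fin t → Mk) j (nilMat J v) l)ᵀ) * fun _ => J) =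
          Function.update (fun _ => J) j (-(J * nilMat J v)) := by
        funext l
        by_cases h : l = j
        · subst h; simp [e1]
        · simp [Function.update_of_ne h]
      have e3 : ((fun _ => J) * Function.update (1 : Fin t → Mk) j (nilMat J v)) =
          Function.update (fun _ => J) j (J * nilMat J v) := by
        funext l
        by_cases h : l = j
        · subst h; simp
        · simp [Function.update_of_ne h]
      rw [e2, e3]
      ext a b
      rw [Matrix.neg_apply, pureMat_update_apply, pureMat_update_apply, Matrix.neg_apply, neg_mul]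
    have hXs : (Ad N)ᵀ * pureMat (fun _ => J) + pureMat (fun _ => J) * Ad N = 0 := by
      set B := pureMat (fun _ : Fin t => J) with hB
      set gi := ((g⁻¹ : GL _ F) : Mt)
      have e1 : B * (g : Mt) = giᵀ * B := by
        conv_rhs => rw [← hg, ← mul_assoc, ← mul_assoc, ← Matrix.transpose_mul, Units.mul_inv,
          Matrix.transpose_one, one_mul]
      have e2 : (g : Mt)ᵀ * B = B * gi := by
        conv_rhs => rw [← hg, mul_assoc, Units.mul_inv, mul_one]
      calc (Ad N)ᵀ * B + B * Ad N = giᵀ * (Nᵀ * ((g : Mt)ᵀ * B)) + B * (g : Mt) * N * gi := by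
            simp only [Ad, Matrix.transpose_mul, mul_assoc]; rfl
        _ = giᵀ * (Nᵀ * B + B * N) * gi := by
            rw [e1, e2, mul_add, add_mul]; simp only [mul_assoc]
        _ = 0 := by rw [hskew, mul_zero, zero_mul]
    obtain ⟨x, hx, hX⟩ := exists_sum_slot hJt h2 hJ hXs fun i u => hc i j u v
    have hsq : Ad N * Ad N = 0 := by
      rw [← hAdm, hN, ← slotMat_mul, nilMat, Matrix.vecMulVec_mul_vecMulVec, dotProduct_comm,
        hself, zero_smul, Matrix.vecMulVec_zero, slotMat_zero]
      simp [Ad]
    rw [hX] at hsq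
    obtain ⟨i, hi⟩ := exists_single hJt h2 hJ (Fin.pos j) hx hsq
    exact ⟨i, x i, hX.trans hi⟩
  choose τ A hA using hone
  have hsame : ∀ j {v v'}, v ⬝ᵥ J *ᵥ v' ≠ 0 → τ j v = τ j v' := by
    intro j v v' hvv
    by_contra hne
    have hcm := hAdi (a₁ := slotMat j (nilMat J v) * slotMat j (nilMat J v'))
      (a₂ := slotMat j (nilMat J v') * slotMat j (nilMat J v)) (by
        rw [hAdm, hAdm, hA, hA, slotMat_comm hne])
    rw [← slotMat_mul, ← slotMat_mul] at hcm
    have e := congrArg (· *ᵥ v') (slotMat_inj hcm)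
    simp only [nilMat, ← Matrix.mulVec_mulVec, Matrix.vecMulVec_mulVec, Matrix.mulVec_smul,
      dotProduct_comm (J *ᵥ v') v', hself, MulOpposite.op_zero, zero_smul] at e
    obtain ⟨a, ha⟩ := Function.ne_iff.1 (fun h0 : v' = 0 => hvv (by simp [h0]))
    have := congrFun e a
    simp [dotProduct_comm (J *ᵥ v'), dotProduct_comm (J *ᵥ v)] at this
    rcases this with (h | h) | h
    · exact hvv h
    · exact ha h
    · exact hvv (by rw [dot_J hJt, h, neg_zero])
  -- non-degeneracy
  have hpair : ∀ v : Fin k → F, v ≠ 0 → ∃ u, v ⬝ᵥ J *ᵥ u ≠ 0 := by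
    intro v hv
    by_contra! h0
    refine hv (Matrix.eq_zero_of_mulVec_eq_zero (M := Jᵀ) (by rwa [Matrix.det_transpose]) ?_)
    ext a
    have := h0 (Pi.single a 1)
    rw [Matrix.dotProduct_mulVec, dotProduct_single, mul_one] at this
    rw [Matrix.mulVec_transpose]; exact this
  let e₀ : Fin k → F := Pi.single 0 1
  have he₀ : e₀ ≠ 0 := fun h => by simpa [e₀] using congrFun h 0
  have hconst : ∀ j v, v ≠ 0 → τ j v = τ j e₀ := by
    intro j v hv
    by_cases hve : v ⬝ᵥ J *ᵥ e₀ ≠ 0
    · exact hsame j hve
    obtain ⟨a, ha⟩ := hpair v hv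
    obtain ⟨b, hb⟩ := hpair e₀ he₀
    push Not at hve
    obtain ⟨u, hu1, hu2⟩ : ∃ u, v ⬝ᵥ J *ᵥ u ≠ 0 ∧ e₀ ⬝ᵥ J *ᵥ u ≠ 0 := by
      by_cases h1 : e₀ ⬝ᵥ J *ᵥ a ≠ 0
      · exact ⟨a, ha, h1⟩
      by_cases h2' : v ⬝ᵥ J *ᵥ b ≠ 0
      · exact ⟨b, h2', hb⟩
      push Not at h1 h2'
      exact ⟨a + b, by simp [Matrix.mulVec_add, h2', ha], by simp [Matrix.mulVec_add, h1, hb]⟩
    rw [hsame j hu1, hsame j hu2]
  let π : Fin t → Fin t := fun j => τ j e₀
  let S : Fin t → Submodule F Mk := fun j =>
    { carrier := {B | ∃ B', Ad (slotMat j B) = slotMat (π j) B'}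
      zero_mem' := ⟨0, by simp [Ad, slotMat_zero]⟩
      add_mem' := by
        rintro B C ⟨B', hB⟩ ⟨C', hC⟩
        exact ⟨B' + C', by rw [slotMat_add (π j), ← hB, ← hC]; simp [Ad, slotMat_add, mul_add, add_mul]⟩
      smul_mem' := by
        rintro c B ⟨B', hB⟩
        exact ⟨c • B', by rw [slotMat_smul (π j), ← hB]; simp [Ad, slotMat_smul]⟩ }
  have hnil : ∀ j v, nilMat J v ∈ S j := fun j v => by
    by_cases hv : v = 0
    · rw [hv, show nilMat J (0 : Fin k → F) = 0 by simp [nilMat]]; exact (S j).zero_mem
    · exact ⟨A j v, by rw [hA, show π j = τ j v from (hconst j v hv).symm]⟩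
  have hmul : ∀ j {B C}, B ∈ S j → C ∈ S j → B * C ∈ S j := by
    rintro j B C ⟨B', hB⟩ ⟨C', hC⟩
    exact ⟨B' * C', by rw [slotMat_mul, slotMat_mul, hAdm, hB, hC]⟩
  have hout : ∀ j v z, v ⬝ᵥ J *ᵥ z ≠ 0 → Matrix.vecMulVec v (J *ᵥ z) ∈ S j := by
    intro j v z hvz
    have := (S j).smul_mem ((J *ᵥ v) ⬝ᵥ z)⁻¹ (hmul j (hnil j v) (hnil j z))
    rwa [nilMat, nilMat, Matrix.vecMulVec_mul_vecMulVec, Matrix.vecMulVec_smul, inv_smul_smul₀] at this
    rw [dotProduct_comm, dot_J hJt]
    exact neg_ne_zero.2 hvz
  have hall : ∀ j B, B ∈ S j := by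
    intro j B
    have hrank : ∀ v z, Matrix.vecMulVec v (J *ᵥ z) ∈ S j := by
      intro v z
      by_cases hv : v = 0
      · simp [hv]
      by_cases hvz : v ⬝ᵥ J *ᵥ z = 0
      · obtain ⟨u, hu⟩ := hpair v hv
        have := (S j).sub_mem (hout j v (z + u) (by simp [Matrix.mulVec_add, hvz, hu]))
          (hout j v u hu)
        simpa [Matrix.mulVec_add, Matrix.vecMulVec_add] using this
      · exact hout j v z hvz
    rw [Matrix.matrix_eq_sum_single B]
    refine Submodule.sum_mem _ fun a _ => Submodule.sum_mem _ fun b _ => ?_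
    rw [← mul_one (B a b), ← smul_eq_mul, ← Matrix.smul_single]
    refine (S j).smul_mem _ ?_
    have := hrank (Pi.single a 1) (J⁻¹ *ᵥ Pi.single b 1)
    rwa [Matrix.mulVec_mulVec, Matrix.mul_nonsing_inv _ (isUnit_iff_ne_zero.2 hJ),
      Matrix.one_mulVec, ← Matrix.single_eq_single_vecMulVec_single] at this
  choose φ hφ using hall
  have hπ : Function.Injective π := by
    intro j j' hjj
    by_contra hne
    let φl : Mk →ₗ[F] Mk :=
      { toFun := φ j
        map_add' := fun B C => slotMat_inj (i := π j) (by
          rw [slotMat_add, ← hφ, ← hφ, ← hφ]; simp [Ad, slotMat_add, mul_add, add_mul])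
        map_smul' := fun c B => slotMat_inj (i := π j) (by
          rw [RingHom.id_apply, slotMat_smul, ← hφ, ← hφ]; simp [Ad, slotMat_smul]) }
    have hsurj : Function.Surjective φl := LinearMap.injective_iff_surjective.1 fun B C h => by
      refine slotMat_inj (i := j) (hAdi ?_)
      rw [hφ, hφ]; exact congrArg _ h
    -- the image of a standard element of the other factor commutes with everything
    set Z := φ j' (nilMat J e₀) with hZ
    have hcomm : ∀ C, Z * C = C * Z := by
      intro C
      obtain ⟨B, rfl⟩ := hsurj C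
      refine slotMat_inj (i := π j) ?_
      rw [slotMat_mul, slotMat_mul, show slotMat (π j) (φl B) = Ad (slotMat j B) from (hφ j B).symm,
        show slotMat (π j) Z = Ad (slotMat j' (nilMat J e₀)) by rw [hZ, hφ, hjj],
        ← hAdm, ← hAdm, slotMat_comm (Ne.symm hne)]
    obtain ⟨r, hr⟩ := Matrix.mem_range_scalar_iff_commute_single'.2 (fun i i' => (hcomm _).symm)
    have hsq : Z * Z = 0 := by
      refine slotMat_inj (i := π j) ?_
      rw [slotMat_mul, slotMat_zero, hjj, hZ, ← hφ, ← hAdm, ← slotMat_mul, nilMat,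
        Matrix.vecMulVec_mul_vecMulVec, dotProduct_comm, hself, zero_smul, Matrix.vecMulVec_zero,
        slotMat_zero]
      simp [Ad]
    have hr0 : r = 0 := by
      rw [← hr, ← map_mul] at hsq
      simpa using congrFun (congrFun hsq 0) 0
    have : slotMat j' (nilMat J e₀) = slotMat j' 0 := hAdi (by
      rw [hφ, ← hZ, ← hr, hr0, map_zero, slotMat_zero, slotMat_zero]; simp [Ad])
    obtain ⟨b, hb⟩ := hpair e₀ he₀
    have e := congrArg (· *ᵥ b) (slotMat_inj this)
    simp only [nilMat, Matrix.vecMulVec_mulVec, Matrix.zero_mulVec] at e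
    rw [smul_eq_zero] at e
    rcases e with h | h
    · rw [MulOpposite.op_eq_zero_iff, dotProduct_comm] at h
      exact hb (by rw [dot_J hJt, h, neg_zero])
    · exact he₀ h
  exact mem_of_maps_slots ht (π := Equiv.ofBijective π (Finite.injective_iff_bijective.1 hπ))
    fun j B => ⟨φ j B, hφ j B⟩

/-- For an alternating datum: compressed conjugates force an element of the wreath product. -/
theorem Datum.mem_wreath_of_compress (D : Datum k F) (hσ : D.σ = RingHom.id F) (h2 : (2 : F) ≠ 0)
    (hk : 2 ≤ k) (ht : 0 < t) {g : GL (Fin t → Fin k) F} (hg : g ∈ D.isom t)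
    (hc : ∀ (i j : Fin t) (u v : Fin k → F), ∃ c : F,
      D.nilSlot i u * ((g : Mt) * D.nilSlot j v * ((g⁻¹ : GL _ F) : Mt)) * D.nilSlot i u =
        c • D.nilSlot i u) :
    g ∈ tensorWreathStandard k t F := by
  have hJ : D.Jᵀ = -D.J := by
    have := D.skew
    rwa [hσ, show D.J.map (RingHom.id F) = D.J from Matrix.ext fun _ _ => rfl] at this
  have hnil : ∀ (i : Fin t) (u : Fin k → F), D.nilSlot i u = slotMat i (nilMat D.J u) := by
    intro i u
    rw [Datum.nilSlot, Datum.nil, hσ]
    rfl
  refine mem_wreath ht hJ D.det h2 hk ?_ fun i j u v => ?_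
  · have := D.mem_isom.1 hg
    rwa [hσ, show (g : Mt).map (RingHom.id F) = (g : Mt) from Matrix.ext fun _ _ => rfl] at this
  · have := hc i j u v
    rwa [hnil, hnil] at this

end CfsgLib.Geometric.TensorForm
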