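import Cfsg.Agent.Lib.Geometric.TensorForm.GrowStep

/-!
# From one compressed element to a transvection at a pure tensor

A good element which is no multiple of a factorwise square-zero operator is refined to a product of
elementary factors, and such products are enlarged until they are transvections at pure tensors.
-/

set_option autoImplicit false
set_option linter.unusedSectionVars false

namespace CfsgLib.Geometric.TensorForm

open scoped Matrix MatrixGroups
open Matrix CfsgLib.SmallDim Cfsg.Geo

variable {k t : ℕ} {F : Type*} [Field F]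

local notation "Mk" => Matrix (Fin k) (Fin k) F
local notation "Mt" => Matrix (Fin t → Fin k) (Fin t → Fin k) F

/-! ## Partial traces -/

/-- The partial trace at position `j` between a functional and a vector. -/
def ptrace (j : Fin t) (φ c : Fin k → F) (Z : Matrix (Fin t → Fin k) (Fin t → Fin k) F) :
    Matrix (Fin t → Fin k) (Fin t → Fin k) F :=
  ∑ p, slot j (vecMulVec (Pi.single p 1) φ) * Z * slot j (vecMulVec c (Pi.single p 1))

lemma vec_expand (v : Fin k → F) : v = ∑ p, v p • (Pi.single p 1 : Fin k → F) := by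
  funext q; simp [Finset.sum_apply, Pi.single_apply]

lemma vmv_sum_left (v φ : Fin k → F) :
    vecMulVec v φ = ∑ p, v p • vecMulVec (Pi.single p 1 : Fin k → F) φ := by
  ext a b; simp [Matrix.sum_apply, Matrix.vecMulVec_apply, Pi.single_apply]

lemma vmv_sum_right (v φ : Fin k → F) :
    vecMulVec v φ = ∑ p, φ p • vecMulVec v (Pi.single p 1 : Fin k → F) := by
  ext a b; simp [Matrix.sum_apply, Matrix.vecMulVec_apply, Pi.single_apply, mul_comm]

lemma slotFree_ptrace (j : Fin t) (φ c : Fin k → F) (Z : Mt) : SlotFree j (ptrace j φ c Z) := by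
  intro A
  rw [ptrace, Finset.mul_sum, Finset.sum_mul]
  have h1 : ∀ p, slot j A * (slot j (vecMulVec (Pi.single p 1) φ) * Z *
      slot j (vecMulVec c (Pi.single p 1))) = ∑ r, A r p •
        (slot j (vecMulVec (Pi.single r 1) φ) * Z * slot j (vecMulVec c (Pi.single p 1))) := by
    intro p
    rw [← mul_assoc, ← mul_assoc, ← map_mul, Matrix.mul_vecMulVec, Matrix.mulVec_single_one,
      vmv_sum_left (A.col p) φ, map_sum, Finset.sum_mul, Finset.sum_mul]
    exact Finset.sum_congr rfl fun r _ => by rw [map_smul, Matrix.smul_mul, Matrix.smul_mul]; rfl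
  have h2 : ∀ r, slot j (vecMulVec (Pi.single r 1) φ) * Z *
      slot j (vecMulVec c (Pi.single r 1)) * slot j A = ∑ p, A r p •
        (slot j (vecMulVec (Pi.single r 1) φ) * Z * slot j (vecMulVec c (Pi.single p 1))) := by
    intro r
    rw [mul_assoc _ _ (slot j A), ← map_mul, Matrix.vecMulVec_mul, Matrix.single_one_vecMul,
      vmv_sum_right c (A.row r), map_sum, Finset.mul_sum]
    exact Finset.sum_congr rfl fun p _ => by rw [map_smul, Matrix.mul_smul]; rfl
  simp only [h1, h2]
  exact Finset.sum_comm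

lemma sandwich_ptrace (j : Fin t) (a φ c ψ : Fin k → F) (Z : Mt) :
    slot j (vecMulVec a φ) * Z * slot j (vecMulVec c ψ) =
      slot j (vecMulVec a ψ) * ptrace j φ c Z := by
  rw [ptrace, Finset.mul_sum]
  have h : ∀ p, slot j (vecMulVec a ψ) * (slot j (vecMulVec (Pi.single p 1) φ) * Z *
      slot j (vecMulVec c (Pi.single p 1))) =
      ψ p • (slot j (vecMulVec a φ) * Z * slot j (vecMulVec c (Pi.single p 1))) := by
    intro p
    rw [← mul_assoc, ← mul_assoc, ← map_mul, Matrix.vecMulVec_mul_vecMulVec, dotProduct_single,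
      mul_one, Matrix.vecMulVec_smul, map_smul, Matrix.smul_mul, Matrix.smul_mul]
  simp only [h]
  rw [vmv_sum_right c ψ, map_sum, Finset.mul_sum]
  exact Finset.sum_congr rfl fun p _ => by rw [map_smul, Matrix.mul_smul]

lemma SlotFree.ptrace {l j : Fin t} (h : l ≠ j) {Z : Mt} (hZ : SlotFree l Z) (φ c : Fin k → F) :
    SlotFree l (TensorForm.ptrace j φ c Z) := by
  intro A
  rw [TensorForm.ptrace, Finset.mul_sum, Finset.sum_mul]
  refine Finset.sum_congr rfl fun p _ => ?_
  exact (((SlotFree.slot h _).mul hZ).mul (SlotFree.slot h _)) A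

lemma ptrace_add_left (j : Fin t) (φ φ' c : Fin k → F) (Z : Mt) :
    ptrace j (φ + φ') c Z = ptrace j φ c Z + ptrace j φ' c Z := by
  simp only [ptrace, Matrix.vecMulVec_add, map_add, add_mul, Finset.sum_add_distrib]

lemma ptrace_add_right (j : Fin t) (φ c c' : Fin k → F) (Z : Mt) :
    ptrace j φ (c + c') Z = ptrace j φ c Z + ptrace j φ c' Z := by
  simp only [ptrace, Matrix.add_vecMulVec, map_add, mul_add, Finset.sum_add_distrib]

lemma ptrace_smul_left (j : Fin t) (a : F) (φ c : Fin k → F) (Z : Mt) :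
    ptrace j (a • φ) c Z = a • ptrace j φ c Z := by
  simp only [ptrace, Matrix.vecMulVec_smul, map_smul, Matrix.smul_mul, Finset.smul_sum]

lemma ptrace_smul_right (j : Fin t) (a : F) (φ c : Fin k → F) (Z : Mt) :
    ptrace j φ (a • c) Z = a • ptrace j φ c Z := by
  simp only [ptrace, Matrix.smul_vecMulVec, map_smul, Matrix.mul_smul, Finset.smul_sum]

lemma SlotFree.eq_zero {j : Fin t} {Z : Mt} (hZ : SlotFree j Z) {A : Mk} (hA : A ≠ 0)
    (h : TensorForm.slot j A * Z = 0) : Z = 0 := by
  obtain ⟨p, q, hpq⟩ : ∃ p q, A p q ≠ 0 := by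
    by_contra h0
    push Not at h0
    exact hA (Matrix.ext fun p q => h0 p q)
  have h1 : ∀ r, TensorForm.slot j (A p q • Matrix.single r r (1 : F)) * Z = 0 := by
    intro r
    have e : Matrix.single r p (1 : F) * A * Matrix.single q r (1 : F) =
        A p q • Matrix.single r r (1 : F) := by
      rw [Matrix.single_mul_mul_single, Matrix.smul_single]
      simp
    rw [← e, map_mul, map_mul, mul_assoc, hZ, ← mul_assoc, mul_assoc _ (TensorForm.slot j A) Z, h,
      mul_zero, zero_mul]
  have h2 : TensorForm.slot j (A p q • (1 : Mk)) * Z = 0 := by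
    rw [show (1 : Mk) = ∑ r, Matrix.single r r (1 : F) by
      rw [Matrix.sum_single_eq_diagonal, Matrix.diagonal_one], Finset.smul_sum, map_sum,
      Finset.sum_mul]
    exact Finset.sum_eq_zero fun r _ => h1 r
  rw [map_smul, map_one, Matrix.smul_mul, one_mul] at h2
  exact (smul_eq_zero.mp h2).resolve_left hpq

/-- An operator commuting with all factors is scalar. -/
lemma eq_scalar_of_slotFree [NeZero k] {Z : Mt} (hZ : ∀ j, SlotFree j Z) : ∃ c : F, Z = c • 1 := by
  classical
  have hp : ∀ f : Fin t → Mk, pureMat f * Z = Z * pureMat f := by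
    intro f
    have : ∀ s : Finset (Fin t), pureMat (s.piecewise f 1) * Z = Z * pureMat (s.piecewise f 1) := by
      intro s
      induction s using Finset.induction_on with
      | empty => simp [pureMat_one]
      | insert j s hj ih =>
        have hsplit : pureMat ((insert j s).piecewise f 1) =
            slot j (f j) * pureMat (s.piecewise f 1) := by
          rw [slot_mul_pureMat]
          congr 1
          funext l
          by_cases h : l = j
          · subst h; simp [hj]
          · simp [Finset.piecewise, h]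
        rw [hsplit, mul_assoc, ih, ← mul_assoc, hZ j, mul_assoc]
    simpa using this Finset.univ
  have hu : ∀ a b, Matrix.single a b (1 : F) * Z = Z * Matrix.single a b (1 : F) := by
    intro a b
    have e : pureMat (fun i : Fin t => Matrix.single (a i) (b i) (1 : F)) =
        Matrix.single a b (1 : F) := by
      ext x y
      by_cases h : a = x ∧ b = y
      · obtain ⟨rfl, rfl⟩ := h; simp [pureMat]
      · rw [Matrix.single_apply, if_neg h]
        rw [not_and_or] at h
        obtain ⟨i, hi⟩ : ∃ i, a i ≠ x i ∨ b i ≠ y i := by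
          rcases h with h | h
          · obtain ⟨i, hi⟩ := Function.ne_iff.mp h; exact ⟨i, Or.inl hi⟩
          · obtain ⟨i, hi⟩ := Function.ne_iff.mp h; exact ⟨i, Or.inr hi⟩
        refine Finset.prod_eq_zero (Finset.mem_univ i) ?_
        simp only [Matrix.single_apply]
        rw [if_neg]
        rintro ⟨e1, e2⟩
        exact hi.elim (fun h => h e1) fun h => h e2
    rw [← e, hp]
  let a₀ : Fin t → Fin k := fun _ => 0
  refine ⟨Z a₀ a₀, Matrix.ext fun x y => ?_⟩
  have := congrFun (congrFun (hu x a₀) x) y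
  by_cases h : x = y
  · subst h
    have e := congrFun (congrFun (hu a₀ x) a₀) x
    simp at e
    simp [e]
  · have e := congrFun (congrFun (hu y y) x) y
    simp [Matrix.mul_apply, Matrix.single_apply, Ne.symm h] at e
    rw [Matrix.smul_apply, Matrix.one_apply_ne h, smul_zero]
    exact e.symm

/-! ## Elementary factors -/

/-- An elementary factor: trivial, of transvection type, or of rank two type. -/
inductive Fac (k : ℕ) (F : Type*) where
  | one : Fac k F
  | nn (u : Fin k → F) : Fac k F
  | pp (u w : Fin k → F) : Fac k F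

/-- The operator of an elementary factor. -/
def Fac.mat (D : Datum k F) : Fac k F → Mk
  | .one => 1
  | .nn u => D.rk1 u u
  | .pp u w => D.rk1 u w - D.rk1 w u

/-- The conditions on the vectors of an elementary factor. -/
def Fac.Ok (D : Datum k F) : Fac k F → Prop
  | .one => True
  | .nn u => u ≠ 0
  | .pp u w => D.f1 u w = 0 ∧ w ≠ 0 ∧ u ∉ Submodule.span F {w}

/-- The factor has rank two type. -/
def Fac.IsP : Fac k F → Prop
  | .pp _ _ => True
  | _ => False

section facts

variable {D : Datum k F} (hD : D.IsSymp)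
include hD

lemma rk1_mulVec (u w x : Fin k → F) : D.rk1 u w *ᵥ x = D.f1 x w • u := by
  rw [Datum.rk1, Matrix.vecMulVec_mulVec, hD.f1_eq, dotProduct_comm x]
  simp

lemma conj_rk1 {a : GL (Fin k) F} (ha : a ∈ CfsgLib.Geometric.isom D.f1) (u w : Fin k → F) :
    (a : Mk) * D.rk1 u w * ((a⁻¹ : GL (Fin k) F) : Mk) = D.rk1 (ap a u) (ap a w) := by
  refine Matrix.ext_of_mulVec_single fun p => ?_
  rw [← Matrix.mulVec_mulVec, ← Matrix.mulVec_mulVec, rk1_mulVec hD, rk1_mulVec hD,
    Matrix.mulVec_smul]
  have h := CfsgLib.Geometric.mem_isom_iff.mp ha (ap a⁻¹ (Pi.single p 1)) w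
  rw [ap_ap_inv] at h
  rw [h]
  rfl

lemma rk1_sandwich (z a b : Fin k → F) :
    D.rk1 z z * D.rk1 a b * D.rk1 z z = (D.f1 a z * D.f1 z b) • D.rk1 z z := by
  rw [hD.rk1_mul, Matrix.smul_mul, hD.rk1_mul, smul_smul]

lemma fac_sq {g : Fac k F} (hg : g.Ok D) (h1 : g ≠ .one) : g.mat D * g.mat D = 0 := by
  have hf := hD.symp_f1
  match g with
  | .one => exact absurd rfl h1
  | .nn u => exact hD.rk1_mul_self
  | .pp u w =>
    simp only [Fac.mat, sub_mul, mul_sub, hD.rk1_mul, hg.1, hf.skew w u, hf.alternating,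
      neg_zero, zero_smul, sub_zero]

lemma rk1_ne_zero {u w : Fin k → F} (hu : u ≠ 0) (hw : w ≠ 0) : D.rk1 u w ≠ 0 := by
  intro h
  obtain ⟨x, hx⟩ := (hD.symp_f1.nondegenerate w hw).1
  have := rk1_mulVec hD u w x
  rw [h, Matrix.zero_mulVec] at this
  exact hx ((smul_eq_zero.mp this.symm).resolve_right hu)

lemma fac_ne_zero [NeZero k] {g : Fac k F} (hg : g.Ok D) : g.mat D ≠ 0 := by
  match g with
  | .one => exact one_ne_zero
  | .nn u => exact rk1_ne_zero hD hg hg
  | .pp u w =>
    intro h
    obtain ⟨x, hx⟩ := (hD.symp_f1.nondegenerate w hg.2.1).1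
    have h' := congrArg (fun A : Mk => A *ᵥ x) h
    simp only [Fac.mat, Matrix.sub_mulVec, rk1_mulVec hD, Matrix.zero_mulVec, sub_eq_zero] at h'
    refine hg.2.2 (Submodule.mem_span_singleton.mpr ⟨(D.f1 x w)⁻¹ * D.f1 x u, ?_⟩)
    rw [← smul_smul, ← h', smul_smul, inv_mul_cancel₀ hx, one_smul]

open scoped Classical in
/-- The sign of transposition of a factor. -/
lemma fac_transpose (g : Fac k F) :
    (g.mat D)ᵀ * D.J = (if g ≠ .one ∧ ¬ g.IsP then (-1 : F) else 1) • (D.J * g.mat D) := by
  have hmap : D.J.map (RingHom.id F) = D.J := by ext; rfl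
  have hs : D.Jᵀ = -D.J := by rw [D.skew, hD.id, hmap]
  have hr : ∀ a b : Fin k → F, (D.rk1 a b)ᵀ * D.J = -(D.J * D.rk1 b a) := by
    intro a b
    rw [Datum.rk1, Datum.rk1, Matrix.transpose_vecMulVec, Matrix.vecMulVec_mul,
      Matrix.mul_vecMulVec, ← Matrix.mulVec_transpose, hs, Matrix.neg_mulVec,
      Matrix.vecMulVec_neg]
  match g with
  | .one => simp [Fac.mat]
  | .nn u => simp [Fac.mat, Fac.IsP, hr]
  | .pp u w =>
    rw [Fac.mat, if_neg (by simp [Fac.IsP]), one_smul, Matrix.transpose_sub, sub_mul, hr, hr,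
      mul_sub]
    abel

end facts

variable {D : Datum k F} (hD : D.IsSymp) {M : Subgroup (GL (Fin t → Fin k) F)} (hM : Over D M)
include hD hM

/-- The operator with elementary factors `σ`. -/
local notation "mon" => fun σ : Fin t → Fac k F => pureMat fun j => Fac.mat D (σ j)

omit hM in
lemma factorPerm_mem (π : Equiv.Perm (Fin t)) :
    (factorPerm π : GL (Fin t → Fin k) F) ∈ tensorWreathStandard k t F ⊓ D.isom t := by
  refine ⟨Subgroup.subset_closure (Or.inr ⟨π, fun x y => rfl⟩), ?_⟩
  show factorPerm π ∈ D.isom t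
  rw [D.mem_isom, hD.id, show ((factorPerm π : GL (Fin t → Fin k) F) : Mt).map (RingHom.id F) =
    (factorPerm π : GL (Fin t → Fin k) F) by ext; rfl]
  have ht : ((factorPerm π : GL (Fin t → Fin k) F) : Mt)ᵀ =
      (((factorPerm π)⁻¹ : GL (Fin t → Fin k) F) : Mt) := by
    ext x y
    show (if x = y ∘ π then (1 : F) else 0) = if y = x ∘ π.symm then 1 else 0
    refine if_congr ⟨?_, ?_⟩ rfl rfl <;> rintro rfl <;> funext i <;> simp
  have hc : D.gram t * ((factorPerm π : GL (Fin t → Fin k) F) : Mt) =
      ((factorPerm π : GL (Fin t → Fin k) F) : Mt) * D.gram t := by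
    rw [Datum.gram, factorPerm_mul_pureMat]
    rfl
  rw [ht, mul_assoc, hc, ← mul_assoc, Units.inv_mul, one_mul]

/-- Conjugation by a monomial isometry. -/
lemma Over.ex_conj {f : Fin t → Mk} (h : Ex M (pureMat f)) (π : Equiv.Perm (Fin t))
    {a : Fin t → GL (Fin k) F} (ha : ∀ j, a j ∈ CfsgLib.Geometric.isom D.f1) :
    Ex M (pureMat fun j => (a j : Mk) * f (π.symm j) * ((a j)⁻¹ : GL (Fin k) F)) := by
  obtain ⟨c, hc, hG⟩ := h
  set g : GL (Fin t → Fin k) F := pureGL a * factorPerm π with hg
  have hgM : g ∈ M := mul_mem (hM.ge (hD.pureGL_mem a ha)) (hM.ge (factorPerm_mem hD π))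
  refine ⟨c, hc, ?_⟩
  have := hG.conj hgM
  rw [Matrix.mul_smul, Matrix.smul_mul] at this
  convert this using 2
  rw [hg, _root_.mul_inv_rev, Units.val_mul, Units.val_mul, mul_assoc _ _ (pureMat f),
    factorPerm_mul_pureMat]
  simp only [mul_assoc, Units.mul_inv_cancel_left]
  rw [← mul_assoc]
  show _ = pureMat (fun i => (a i : Mk)) * pureMat (f ∘ π.symm) *
    pureMat (fun i => ((a i)⁻¹ : GL (Fin k) F).val)
  rw [← pureMat_mul, ← pureMat_mul]
  exact congrArg pureMat (funext fun j => (mul_assoc _ _ _).symm)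

open scoped Classical in
set_option maxHeartbeats 1000000 in
/-- The bracket with a moved and turned copy. -/
lemma Over.mon_op {σ : Fin t → Fac k F} (hσ : ∀ j, (σ j).Ok D) (hX : Ex M (mon σ))
    (π : Equiv.Perm (Fin t)) (hπ : ∀ j, π (π j) = j)
    (hmove : ∀ j, π j ≠ j → (σ j = .one ↔ σ (π j) ≠ .one))
    (hodd : Odd (Finset.univ.filter fun j => σ j ≠ .one ∧ π j = j).card)
    (hwit : (∃ j, π j ≠ j) ∨ ∃ j, (σ j).IsP) :
    ∃ τ : Fin t → Fac k F, (∀ j, (τ j).Ok D) ∧ Ex M (mon τ) ∧
      (∀ j, τ j = .one ↔ σ j = .one ∧ σ (π j) = .one) ∧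
      (∀ j, (τ j).IsP ↔ π j ≠ j ∧ ((σ j).IsP ∨ (σ (π j)).IsP)) := by
  have hf := hD.symp_f1
  have hsym : π.symm = π := Equiv.ext fun j => by rw [Equiv.symm_apply_eq, hπ]
  have hloc : ∀ j, ∃ (a : GL (Fin k) F) (g : Fac k F) (z : Fin k → F) (s : F),
      a ∈ CfsgLib.Geometric.isom D.f1 ∧ g.Ok D ∧ s ≠ 0 ∧
      (g = .one ↔ σ j = .one ∧ σ (π j) = .one) ∧
      (g.IsP ↔ π j ≠ j ∧ ((σ j).IsP ∨ (σ (π j)).IsP)) ∧
      (let A := (σ j).mat D
       let B := (a : Mk) * (σ (π j)).mat D * ((a⁻¹ : GL (Fin k) F) : Mk)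
       let e : F := if σ j ≠ .one ∧ π j = j then -1 else 1
       (if σ j ≠ .one ∧ π j = j ∧ ¬ (σ j).IsP then
          D.rk1 z z * (A * B) * D.rk1 z z = s • g.mat D ∧
            D.rk1 z z * (B * A) * D.rk1 z z = (e * s) • g.mat D
        else A * B = s • g.mat D ∧ B * A = (e * s) • g.mat D) ∧
       ((σ j).IsP → π j = j → A * B * A = 0 ∧ B * A * B = 0)) := by
    intro j
    by_cases hj : π j = j
    · rw [hj]
      rcases hσj : σ j with _ | u | ⟨u, w⟩
      · refine ⟨1, .one, 0, 1, one_mem _, trivial, one_ne_zero, by simp, by simp [Fac.IsP], ?_⟩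
        simp [Fac.mat, Fac.IsP]
      · have hu : u ≠ 0 := by have := hσ j; rwa [hσj] at this
        obtain ⟨v, -, huv⟩ := Symp.exists_perp_one hf (U := ⊥) (x := u) (by simpa using hu)
        have hv : v ≠ 0 := fun h => one_ne_zero (α := F) (by rw [← huv, h, Symp.zero_right hf])
        obtain ⟨a, ha, hau⟩ := Symp.exists_isom_map hf hu hv
        have hz : u + v ≠ 0 := fun h => one_ne_zero (α := F) (by
          have e : D.f1 u (u + v) = 0 := by rw [h, Symp.zero_right hf]
          rwa [hf.bilinear.add_right, hf.alternating, huv, zero_add] at e)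
        refine ⟨a, .nn (u + v), u + v, -1, ha, hz, neg_ne_zero.mpr one_ne_zero, by simp,
          by simp [Fac.IsP], ?_⟩
        simp only [Fac.mat, Fac.IsP, conj_rk1 hD ha, hau, hD.rk1_mul, huv, hf.skew v u,
          Matrix.mul_smul, Matrix.smul_mul, hf.bilinear.add_left,
          hf.bilinear.add_right, hf.alternating, ne_eq, reduceCtorEq, not_false_eq_true,
          and_true, if_true, false_implies, smul_smul]
        refine ⟨?_, ?_⟩ <;> congr 1 <;> ring
      · obtain ⟨huw, hw, huw'⟩ : D.f1 u w = 0 ∧ w ≠ 0 ∧ u ∉ Submodule.span F {w} := by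
          have := hσ j; rwa [hσj] at this
        obtain ⟨u', hu'p, huu'⟩ := Symp.exists_perp_one hf huw'
        rw [Symp.mem_perp_span hf] at hu'p
        have hu'w : u' ∉ Submodule.span F {w} := fun h => by
          obtain ⟨c, rfl⟩ := Submodule.mem_span_singleton.mp h
          rw [hf.bilinear.smul_right, huw, mul_zero] at huu'
          exact zero_ne_one huu'
        obtain ⟨a, ha, haw, hau⟩ := Symp.exists_isom_map_fix hf huw' hu'w (by rw [huw, hu'p])
        refine ⟨a, .nn w, 0, 1, ha, hw, one_ne_zero, by simp, by simp [Fac.IsP], ?_⟩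
        have e1 : D.f1 w u = 0 := (Symp.eq_zero_comm hf).mp huw
        have e2 : D.f1 w u' = 0 := (Symp.eq_zero_comm hf).mp hu'p
        have e3 : D.f1 u' u = -1 := by rw [hf.skew, huu']
        simp only [Fac.mat, Fac.IsP, Matrix.mul_sub, Matrix.sub_mul, conj_rk1 hD ha, hau, haw,
          hD.rk1_mul, huw, hu'p, e1, e2, e3, huu', hf.alternating, zero_smul, Matrix.smul_mul,
          sub_zero, zero_sub, neg_zero, neg_mul, mul_neg, neg_smul, neg_neg, one_smul, ne_eq, reduceCtorEq,
          not_false_eq_true, not_true_eq_false, and_true, and_false, if_false, if_true]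
        simp
    · have h' := hmove j hj
      by_cases h0 : σ j = .one
      · refine ⟨1, σ (π j), 0, 1, one_mem _, hσ _, one_ne_zero, by simp [h0], ?_, ?_⟩
        · simp [hj, h0, Fac.IsP]
        · simp [h0, hj, Fac.mat]
      · have h1 : σ (π j) = .one := not_not.mp fun h => h0 (h'.mpr h)
        refine ⟨1, σ j, 0, 1, one_mem _, hσ _, one_ne_zero, by simp [h1], ?_, ?_⟩
        · simp [hj, h1, Fac.IsP]
        · simp [h1, hj, Fac.mat]
  choose a τ z s ha hτ hs hone hP hval using hloc
  refine ⟨τ, hτ, ?_, hone, hP⟩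
  have hX' := hM.ex_conj hD hX π ha
  simp only [hsym] at hX'
  obtain ⟨l, hl, hτl⟩ : ∃ l, ¬ (σ l ≠ .one ∧ π l = l ∧ ¬ (σ l).IsP) ∧ τ l ≠ .one := by
    rcases hwit with ⟨j, hj⟩ | ⟨j, hj⟩
    · refine ⟨j, fun h => hj h.2.1, fun h => ?_⟩
      have := (hone j).mp h
      exact ((hmove j hj).mp this.1) this.2
    · refine ⟨j, fun h => h.2.2 hj, fun h => ?_⟩
      have := ((hone j).mp h).1
      rw [this] at hj
      exact hj
  have hpair : ∃ j j', (σ j).mat D * ((a j : Mk) * (σ (π j)).mat D *
        ((a j)⁻¹ : GL (Fin k) F)) * (σ j).mat D = 0 ∧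
      ((a j' : Mk) * (σ (π j')).mat D * ((a j')⁻¹ : GL (Fin k) F)) * (σ j').mat D *
        ((a j' : Mk) * (σ (π j')).mat D * ((a j')⁻¹ : GL (Fin k) F)) = 0 := by
    by_cases hm : ∃ j, π j ≠ j
    · obtain ⟨j, hj⟩ := hm
      obtain ⟨j, hj, hj1⟩ : ∃ i, π i ≠ i ∧ σ i ≠ .one := by
        by_cases h : σ j = .one
        · exact ⟨π j, fun h' => hj (π.injective h'), (hmove j hj).mp h⟩
        · exact ⟨j, hj, h⟩
      have h1 : σ (π j) = .one := not_not.mp fun h => hj1 ((hmove j hj).mpr h)
      refine ⟨j, π j, ?_, ?_⟩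
      · rw [h1, show Fac.mat D (Fac.one : Fac k F) = 1 from rfl, mul_one, Units.mul_inv, mul_one,
          fac_sq hD (hσ j) hj1]
      · rw [hπ, h1, show Fac.mat D (Fac.one : Fac k F) = 1 from rfl]
        simp only [mul_one]
        have e : ∀ (g : GL (Fin k) F) (A : Mk), (g : Mk) * A * ((g⁻¹ : GL (Fin k) F) : Mk) *
            ((g : Mk) * A * ((g⁻¹ : GL (Fin k) F) : Mk)) =
            (g : Mk) * (A * A) * ((g⁻¹ : GL (Fin k) F) : Mk) := fun g A => by
          calc _ = (g : Mk) * A * (((g⁻¹ : GL (Fin k) F) : Mk) * (g : Mk)) * A *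
                ((g⁻¹ : GL (Fin k) F) : Mk) := by simp only [mul_assoc]
            _ = _ := by rw [Units.inv_mul, mul_one, mul_assoc (g : Mk) A A]
        rw [e, fac_sq hD (hσ j) hj1, mul_zero, zero_mul]
    · push Not at hm
      obtain ⟨j, hj⟩ := hwit.resolve_left (fun ⟨j, h⟩ => h (hm j))
      exact ⟨j, j, (hval j).2 hj (hm j)⟩
  obtain ⟨j₁, j₂, h1, h2⟩ := hpair
  refine hM.op hD (f := fun j => (σ j).mat D)
    (f' := fun j => (a j : Mk) * (σ (π j)).mat D * ((a j)⁻¹ : GL (Fin k) F))
    (G := fun j => (τ j).mat D) (s := s)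
    (ε := fun j => if σ j ≠ .one ∧ π j = j then -1 else 1) z
    (S := Finset.univ.filter fun j => σ j ≠ .one ∧ π j = j ∧ ¬ (σ j).IsP) (l := l)
    (by simp only [Finset.mem_filter, Finset.mem_univ, true_and]; exact hl)
    hX hX' ⟨j₁, h1⟩ ⟨j₂, h2⟩ ?_ ?_ (fac_sq hD (hτ l) hτl) hs ?_
  · intro j hj
    have := (hval j).1
    rwa [if_pos (by simpa using hj)] at this
  · intro j hj
    have := (hval j).1
    rwa [if_neg (by simpa using hj)] at this
  · rw [Finset.prod_ite, Finset.prod_const_one, mul_one, Finset.prod_const, hodd.neg_one_pow]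

open scoped Classical in
/-- A monomial without rank two factors has an odd number of factors. -/
lemma Over.odd_supp [NeZero k] {σ : Fin t → Fac k F} (hσ : ∀ j, (σ j).Ok D) (hX : Ex M (mon σ))
    (hP : ∀ j, ¬ (σ j).IsP) : Odd (Finset.univ.filter fun j => σ j ≠ .one).card := by
  obtain ⟨c, hc, hXX, g, hg, hgX⟩ := hX
  set X : Mt := c • (mon σ) with hXdef
  have hmap : ∀ A : Mt, A.map (RingHom.id F) = A := fun A => by ext; rfl
  have h1 := D.mem_isom.mp (hM.le hg)
  have h2 := D.mem_isom.mp (hM.le (inv_mem hg))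
  rw [hgX, hD.id, hmap] at h1
  rw [inv_val_of hXX hgX, hD.id, hmap] at h2
  have h3 : (2 : F) • (Xᵀ * D.gram t + D.gram t * X) = 0 := by
    have e : (2 : F) • (Xᵀ * D.gram t + D.gram t * X) =
        (1 + X)ᵀ * D.gram t * (1 + X) - (1 - X)ᵀ * D.gram t * (1 - X) := by
      simp only [Matrix.transpose_add, Matrix.transpose_sub, Matrix.transpose_one, add_mul,
        sub_mul, mul_add, mul_sub, one_mul, mul_one]
      module
    rw [e, h1, h2, sub_self]
  have h4 := (smul_eq_zero.mp h3).resolve_left hD.two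
  rw [hXdef, Matrix.transpose_smul, Matrix.smul_mul, Matrix.mul_smul, ← smul_add] at h4
  have h5 := (smul_eq_zero.mp h4).resolve_left hc
  rw [Datum.gram, pureMat_transpose, ← pureMat_mul, ← pureMat_mul] at h5
  rw [show ((fun i => ((σ i).mat D)ᵀ) * fun _ => D.J) = fun i =>
      (if σ i ≠ .one then (-1 : F) else 1) • (D.J * (σ i).mat D) from funext fun i => by
        rw [Pi.mul_apply, fac_transpose hD]; simp [hP i],
    pureMat_smul, show ((fun _ => D.J) * fun i => (σ i).mat D) = fun i => D.J * (σ i).mat D from rfl,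
    ← add_one_smul_eq] at h5
  have hne : pureMat (fun i => D.J * (σ i).mat D) ≠ 0 := by
    have hn : ∀ i, ∃ p q, (D.J * (σ i).mat D) p q ≠ 0 := by
      intro i
      by_contra h0
      push Not at h0
      refine fac_ne_zero hD (hσ i) ?_
      have h' : D.J * (σ i).mat D = 0 := Matrix.ext fun p q => h0 p q
      rw [← one_mul ((σ i).mat D), ← Matrix.nonsing_inv_mul D.J (isUnit_iff_ne_zero.mpr D.det),
        mul_assoc, h', mul_zero]
    choose p q hpq using hn
    exact fun h => Finset.prod_ne_zero_iff.mpr (fun i _ => hpq i) (by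
      have := congrFun (congrFun h p) q
      simpa [pureMat] using this)
  have h6 := (smul_eq_zero.mp h5).resolve_right hne
  rw [Finset.prod_ite, Finset.prod_const_one, mul_one, Finset.prod_const] at h6
  rcases Nat.even_or_odd (Finset.univ.filter fun j => σ j ≠ .one).card with he | ho
  · rw [he.neg_one_pow, one_add_one_eq_two] at h6
    exact absurd h6 hD.two
  · exact ho
where
  add_one_smul_eq {X : Matrix (Fin t → Fin k) (Fin t → Fin k) F} {a : F} :
      (a + 1) • X = a • X + X := by rw [add_smul, one_smul]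

open scoped Classical in
omit hD hM in
/-- The positions of the non-trivial factors. -/
noncomputable def supp (σ : Fin t → Fac k F) : Finset (Fin t) :=
  Finset.univ.filter fun j => σ j ≠ Fac.one

omit hD hM in
@[simp] lemma mem_supp {σ : Fin t → Fac k F} {j : Fin t} : j ∈ supp σ ↔ σ j ≠ Fac.one := by
  simp [supp]

open scoped Classical in
/-- A monomial with an odd number of factors can be turned into one of transvection factors. -/
lemma Over.to_nn {σ : Fin t → Fac k F} (hσ : ∀ j, (σ j).Ok D) (hX : Ex M (mon σ))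
    (hodd : Odd (supp σ).card) (hP : ∃ j, (σ j).IsP) :
    ∃ τ : Fin t → Fac k F, (∀ j, (τ j).Ok D) ∧ Ex M (mon τ) ∧ (∀ j, ¬ (τ j).IsP) ∧
      (supp τ).card = (supp σ).card := by
  obtain ⟨τ, hτ, hE, h1, h2⟩ := hM.mon_op hD hσ hX 1 (fun j => rfl)
    (fun j hj => absurd rfl hj) (by simpa [supp] using hodd) (Or.inr hP)
  refine ⟨τ, hτ, hE, fun j h => ((h2 j).mp h).1 rfl, congrArg Finset.card ?_⟩
  ext j
  simp [h1]

open scoped Classical in
set_option maxHeartbeats 1000000 in
/-- A monomial with at least two factors gives one with only transvection factors everywhere. -/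
lemma Over.to_full [NeZero k] (ht : Odd t) {σ : Fin t → Fac k F} (hσ : ∀ j, (σ j).Ok D)
    (hX : Ex M (mon σ)) (h2 : 2 ≤ (supp σ).card) :
    ∃ τ : Fin t → Fac k F, (∀ j, (τ j).Ok D) ∧ Ex M (mon τ) ∧
      ∀ j, τ j ≠ .one ∧ ¬ (τ j).IsP := by
  have hle : ∀ σ : Fin t → Fac k F, (supp σ).card ≤ t := fun σ =>
    (Finset.card_le_univ _).trans_eq (Fintype.card_fin t)
  -- transvection factors only, in odd number
  have start : ∃ τ : Fin t → Fac k F, (∀ j, (τ j).Ok D) ∧ Ex M (mon τ) ∧ (∀ j, ¬ (τ j).IsP) ∧
      3 ≤ (supp τ).card := by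
    by_cases hP : ∃ j, (σ j).IsP
    · rcases Nat.even_or_odd (supp σ).card with he | ho
      · obtain ⟨j, hj⟩ := hP
        have hj1 : σ j ≠ .one := fun h => by rw [h] at hj; exact hj
        obtain ⟨l, hl⟩ : ∃ l, σ l = .one := by
          by_contra h
          push Not at h
          have : (supp σ).card = t := by simp [supp, h]
          rw [this] at he
          exact (Nat.not_even_iff_odd.mpr ht) he
        have hjl : j ≠ l := fun h => hj1 (h ▸ hl)
        have hfix : (Finset.univ.filter fun i => σ i ≠ .one ∧ Equiv.swap j l i = i) =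
            (supp σ).erase j := by
          ext i
          simp only [Finset.mem_filter, Finset.mem_univ, true_and, Finset.mem_erase, mem_supp]
          constructor
          · rintro ⟨h1, h2⟩
            refine ⟨fun h => hjl ?_, h1⟩
            subst h
            rwa [Equiv.swap_apply_left, eq_comm] at h2
          · rintro ⟨h1, h2⟩
            exact ⟨h2, Equiv.swap_apply_of_ne_of_ne h1 fun h => h2 (h ▸ hl)⟩
        obtain ⟨τ, hτ, hE, h1', hP'⟩ := hM.mon_op hD hσ hX (Equiv.swap j l)
          (fun i => Equiv.swap_apply_self j l i) (fun i hi => by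
            rcases eq_or_ne i j with rfl | hij
            · rw [Equiv.swap_apply_left]
              simp [hj1, hl]
            rcases eq_or_ne i l with rfl | hil
            · rw [Equiv.swap_apply_right]
              simp [hj1, hl]
            exact absurd (Equiv.swap_apply_of_ne_of_ne hij hil) hi)
          (by
            rw [hfix, Finset.card_erase_of_mem (by simp [hj1])]
            exact Nat.Even.sub_odd (by omega) he odd_one)
          (Or.inl ⟨j, by rw [Equiv.swap_apply_left]; exact hjl.symm⟩)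
        have hs : supp τ = insert l (supp σ) := by
          ext i
          simp only [mem_supp, Finset.mem_insert, ne_eq, h1',
            not_and_or]
          constructor
          · rintro (h | h)
            · exact Or.inr h
            · rcases eq_or_ne i l with rfl | hil
              · exact Or.inl rfl
              rcases eq_or_ne i j with rfl | hij
              · exact Or.inr hj1
              rw [Equiv.swap_apply_of_ne_of_ne hij hil] at h
              exact Or.inr h
          · rintro (rfl | h)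
            · exact Or.inr (by rw [Equiv.swap_apply_right]; exact hj1)
            · exact Or.inl h
        have hcard : (supp τ).card = (supp σ).card + 1 := by
          rw [hs, Finset.card_insert_of_notMem (by simp [hl])]
        obtain ⟨ρ, h1, h3, h4, h5⟩ := hM.to_nn hD hτ hE
          (by rw [hcard]; exact he.add_one)
          ⟨j, (hP' j).mpr ⟨by rw [Equiv.swap_apply_left]; exact hjl.symm, Or.inl hj⟩⟩
        exact ⟨ρ, h1, h3, h4, by omega⟩
      · obtain ⟨ρ, h1, h3, h4, h5⟩ := hM.to_nn hD hσ hX ho hP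
        obtain ⟨c, hc⟩ := ho
        exact ⟨ρ, h1, h3, h4, by omega⟩
    · push Not at hP
      obtain ⟨c, hc⟩ : Odd (supp σ).card := hM.odd_supp hD hσ hX hP
      exact ⟨σ, hσ, hX, hP, by omega⟩
  obtain ⟨τ₀, ok₀, ex₀, np₀, h3⟩ := start
  -- enlarge
  suffices ∀ d (τ : Fin t → Fac k F), (∀ j, (τ j).Ok D) → Ex M (mon τ) → (∀ j, ¬ (τ j).IsP) →
      3 ≤ (supp τ).card → t - (supp τ).card = d →
      ∃ τ : Fin t → Fac k F, (∀ j, (τ j).Ok D) ∧ Ex M (mon τ) ∧
        ∀ j, τ j ≠ .one ∧ ¬ (τ j).IsP by
    exact this _ τ₀ ok₀ ex₀ np₀ h3 rfl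
  intro d
  induction d using Nat.strong_induction_on with
  | _ d ih =>
    intro τ ok ex np h3 hd
    by_cases hall : ∀ j, τ j ≠ .one
    · exact ⟨τ, ok, ex, fun j => ⟨hall j, np j⟩⟩
    have hodd : Odd (supp τ).card := hM.odd_supp hD ok ex np
    have hlt : (supp τ).card < t := by
      refine lt_of_le_of_ne (hle τ) fun h => hall fun j => ?_
      have := Finset.eq_univ_of_card _ (h.trans (Fintype.card_fin t).symm)
      simpa using (Finset.ext_iff.mp this j).mpr (Finset.mem_univ j)
    have hcompl : 2 ≤ (supp τ)ᶜ.card := by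
      rw [Finset.card_compl, Fintype.card_fin]
      obtain ⟨c, hc⟩ := hodd
      obtain ⟨e, he⟩ := ht
      omega
    obtain ⟨a, ha, b, hb, hab⟩ := Finset.one_lt_card.mp (show 1 < (supp τ).card by omega)
    obtain ⟨c, hc, e, he, hce⟩ := Finset.one_lt_card.mp hcompl
    simp only [mem_supp, Finset.mem_compl, not_not, ne_eq]
      at ha hb hc he
    have hac : a ≠ c := fun h => ha (h ▸ hc)
    have hae : a ≠ e := fun h => ha (h ▸ he)
    have hbc : b ≠ c := fun h => hb (h ▸ hc)
    have hbe : b ≠ e := fun h => hb (h ▸ he)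
    set π : Equiv.Perm (Fin t) := Equiv.swap a c * Equiv.swap b e with hπdef
    have pa : π a = c := by
      rw [hπdef, Equiv.Perm.mul_apply, Equiv.swap_apply_of_ne_of_ne hab hae, Equiv.swap_apply_left]
    have pb : π b = e := by
      rw [hπdef, Equiv.Perm.mul_apply, Equiv.swap_apply_left,
        Equiv.swap_apply_of_ne_of_ne hae.symm hce.symm]
    have pc : π c = a := by
      rw [hπdef, Equiv.Perm.mul_apply, Equiv.swap_apply_of_ne_of_ne hbc.symm hce,
        Equiv.swap_apply_right]
    have pe : π e = b := by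
      rw [hπdef, Equiv.Perm.mul_apply, Equiv.swap_apply_right,
        Equiv.swap_apply_of_ne_of_ne hab.symm hbc]
    have po : ∀ i, i ≠ a → i ≠ b → i ≠ c → i ≠ e → π i = i := fun i h1 h2 h3 h4 => by
      rw [hπdef, Equiv.Perm.mul_apply, Equiv.swap_apply_of_ne_of_ne h2 h4,
        Equiv.swap_apply_of_ne_of_ne h1 h3]
    have hcases : ∀ i, i = a ∨ i = b ∨ i = c ∨ i = e ∨ π i = i := fun i => by
      by_cases h1 : i = a
      · exact Or.inl h1
      by_cases h2 : i = b
      · exact Or.inr (Or.inl h2)
      by_cases h3 : i = c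
      · exact Or.inr (Or.inr (Or.inl h3))
      by_cases h4 : i = e
      · exact Or.inr (Or.inr (Or.inr (Or.inl h4)))
      exact Or.inr (Or.inr (Or.inr (Or.inr (po i h1 h2 h3 h4))))
    have hfix : (Finset.univ.filter fun i => τ i ≠ .one ∧ π i = i) =
        ((supp τ).erase a).erase b := by
      ext i
      simp only [Finset.mem_filter, Finset.mem_univ, true_and, Finset.mem_erase, mem_supp]
      constructor
      · rintro ⟨h1, h2⟩
        refine ⟨fun h => hbe ?_, fun h => hac ?_, h1⟩
        · rw [h, pb] at h2; exact h2.symm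
        · rw [h, pa] at h2; exact h2.symm
      · rintro ⟨h1, h2, h3⟩
        exact ⟨h3, po i h2 h1 (fun h => h3 (h ▸ hc)) fun h => h3 (h ▸ he)⟩
    obtain ⟨τ', ok', ex', h1', hP'⟩ := hM.mon_op hD ok ex π
      (fun i => by
        rcases hcases i with rfl | rfl | rfl | rfl | h
        · rw [pa, pc]
        · rw [pb, pe]
        · rw [pc, pa]
        · rw [pe, pb]
        · rw [h, h])
      (fun i hi => by
        rcases hcases i with rfl | rfl | rfl | rfl | h
        · simp [pa, ha, hc]
        · simp [pb, hb, he]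
        · simp [pc, ha, hc]
        · simp [pe, hb, he]
        · exact absurd h hi)
      (by
        rw [hfix, Finset.card_erase_of_mem (by simp [hb, hab.symm]),
          Finset.card_erase_of_mem (by simp [ha])]
        obtain ⟨u, hu⟩ := hodd
        exact ⟨u - 1, by omega⟩)
      (Or.inl ⟨a, by rw [pa]; exact hac.symm⟩)
    have hnp : ∀ j, ¬ (τ' j).IsP := fun j h => by
      rcases ((hP' j).mp h).2 with h' | h'
      · exact np _ h'
      · exact np _ h'
    have hs : supp τ' = insert c (insert e (supp τ)) := by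
      ext i
      simp only [mem_supp, Finset.mem_insert, ne_eq, h1',
        not_and_or]
      constructor
      · rintro (h | h)
        · exact Or.inr (Or.inr h)
        · rcases hcases i with rfl | rfl | rfl | rfl | h'
          · exact Or.inr (Or.inr ha)
          · exact Or.inr (Or.inr hb)
          · exact Or.inl rfl
          · exact Or.inr (Or.inl rfl)
          · rw [h'] at h; exact Or.inr (Or.inr h)
      · rintro (rfl | rfl | h)
        · exact Or.inr (by rw [pc]; exact ha)
        · exact Or.inr (by rw [pe]; exact hb)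
        · exact Or.inl h
    have hcard : (supp τ').card = (supp τ).card + 2 := by
      rw [hs, Finset.card_insert_of_notMem (by simp [hc, hce]),
        Finset.card_insert_of_notMem (by simp [he])]
    exact ih (t - (supp τ').card) (by omega) τ' ok' ex' hnp (by omega) rfl

/-- A monomial of transvection factors is a transvection at a pure tensor. -/
lemma Over.exists_T [NeZero k] (ht : Odd t) {σ : Fin t → Fac k F} (hσ : ∀ j, (σ j).Ok D)
    (hX : Ex M (mon σ)) (hall : ∀ j, σ j ≠ .one ∧ ¬ (σ j).IsP) :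
    ∃ (w : Fin t → Fin k → F) (κ : F), (∀ i, w i ≠ 0) ∧ κ ≠ 0 ∧
      Symp.T (hD.symp_powF ht) (pureTensorVec w) κ ∈ M := by
  have hu : ∀ j, ∃ u : Fin k → F, u ≠ 0 ∧ (σ j).mat D = D.rk1 u u := by
    intro j
    rcases hj : σ j with _ | u | ⟨u, w⟩
    · exact absurd hj (hall j).1
    · exact ⟨u, by have := hσ j; rwa [hj] at this, rfl⟩
    · exact absurd (by rw [hj]; trivial) (hall j).2
  choose u hu0 hu using hu
  obtain ⟨c, hc, -, g, hg, hgX⟩ := hX
  have e : (mon σ) = vecMulVec (pureTensorVec u) (D.gram t *ᵥ pureTensorVec u) := by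
    ext x y
    rw [Datum.gram, pureMat_mulVec, Matrix.vecMulVec_apply]
    simp only [pureMat, Matrix.of_apply, pureTensorVec, hu, Datum.rk1, Matrix.vecMulVec_apply,
      Finset.prod_mul_distrib]
  refine ⟨u, c, hu0, hc, ?_⟩
  convert hg using 1
  refine gl_ext fun x => ?_
  rw [Symp.ap_T]
  show _ = (g : Mt) *ᵥ x
  rw [hgX, e, Matrix.add_mulVec, Matrix.one_mulVec, Matrix.smul_mulVec, Matrix.vecMulVec_mulVec]
  simp [Datum.powF, smul_smul, dotProduct_comm]

open scoped Classical in
set_option maxHeartbeats 1000000 in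
/-- A compressed element which is no multiple of a factorwise square-zero operator gives a
transvection at a pure tensor. -/
theorem Over.exists_pure_root [NeZero k] (ht : Odd t) {i : Fin t} {u : Fin k → F} (hu : u ≠ 0)
    {A₀ : Mt} {g : GL (Fin t → Fin k) F} (hg : g ∈ M)
    (hgX : (g : Mt) = 1 + D.nilSlot i u * A₀ * D.nilSlot i u)
    (hne : ∀ c : F, D.nilSlot i u * A₀ * D.nilSlot i u ≠ c • D.nilSlot i u) :
    ∃ (w : Fin t → Fin k → F) (κ : F), (∀ i, w i ≠ 0) ∧ κ ≠ 0 ∧
      Symp.T (hD.symp_powF ht) (pureTensorVec w) κ ∈ M := by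
  have hf := hD.symp_f1
  let Jv : (Fin k → F) → Fin k → F := fun v => D.J *ᵥ v
  -- invariant
  suffices hinv : ∀ s : Finset (Fin t), i ∈ s → ∃ (σ : Fin t → Fac k F) (Z : Mt),
      (∀ j, (σ j).Ok D) ∧ σ i = .nn u ∧ (∀ j, j ∉ s → σ j = .one) ∧ (∀ j ∈ s, SlotFree j Z) ∧
      Z ≠ 0 ∧ Ex M ((mon σ) * Z) ∧ ((∃ j, j ≠ i ∧ σ j ≠ .one) ∨ ∀ c : F, Z ≠ c • 1) by
    obtain ⟨σ, Z, hσ, hσi, -, hZ, hZ0, hE, hflag⟩ := hinv Finset.univ (Finset.mem_univ i)
    obtain ⟨c, rfl⟩ := eq_scalar_of_slotFree fun j => hZ j (Finset.mem_univ j)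
    have hc : c ≠ 0 := fun h => hZ0 (by rw [h, zero_smul])
    rw [Matrix.mul_smul, mul_one, Ex.smul hc] at hE
    obtain ⟨j, hji, hj⟩ := hflag.resolve_right fun h => h c rfl
    obtain ⟨τ, hτ, hEτ, hall⟩ := hM.to_full hD ht hσ hE (Finset.one_lt_card.mpr
      ⟨j, by simp [hj], i, by simp [hσi], hji⟩)
    exact hM.exists_T hD ht hτ hEτ hall
  intro s hs
  induction hs' : s.card using Nat.strong_induction_on generalizing s with
  | _ n ih =>
    by_cases hsi : s = {i}
    · subst hsi
      -- the start
      have hN : D.nilSlot i u * A₀ * D.nilSlot i u =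
          slot i (D.rk1 u u) * ptrace i (Jv u) u A₀ := by
        rw [hD.nilSlot_eq]
        exact sandwich_ptrace i u (Jv u) u (Jv u) A₀
      set σ : Fin t → Fac k F := fun j => if j = i then .nn u else .one with hσdef
      have hmon : (mon σ) = slot i (D.rk1 u u) := by
        rw [slot_apply]
        refine congrArg pureMat (funext fun j => ?_)
        by_cases h : j = i
        · subst h; simp [hσdef, Fac.mat]
        · simp [hσdef, h, Fac.mat]
      refine ⟨σ, ptrace i (Jv u) u A₀, fun j => ?_, by simp [hσdef], fun j hj => ?_,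
        fun j hj => ?_, fun h => hne 0 ?_, ⟨1, one_ne_zero, ?_⟩, Or.inr fun c h => hne c ?_⟩
      · by_cases h : j = i
        · simp [hσdef, h, Fac.Ok, hu]
        · simp [hσdef, h, Fac.Ok]
      · simp only [Finset.mem_singleton] at hj
        simp [hσdef, hj]
      · rw [Finset.mem_singleton] at hj
        subst hj
        exact slotFree_ptrace _ _ _ _
      · rw [hN, h, mul_zero, zero_smul]
      · rw [one_smul, hmon, ← hN]
        refine ⟨?_, g, hg, hgX⟩
        have h0 := D.nilSlot_mul_self (i := i) (hf.alternating u)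
        calc _ = D.nilSlot i u * A₀ * (D.nilSlot i u * D.nilSlot i u) * A₀ * D.nilSlot i u := by
              simp only [mul_assoc]
          _ = 0 := by rw [h0]; simp
      · rw [hN, h, Matrix.mul_smul, mul_one, hD.nilSlot_eq]
    obtain ⟨j, hjs, hji⟩ : ∃ j ∈ s, j ≠ i := by
      by_contra h
      push Not at h
      exact hsi (Finset.eq_singleton_iff_unique_mem.mpr ⟨hs, h⟩)
    obtain ⟨σ, Z, hσ, hσi, hoff, hZ, hZ0, hE, hflag⟩ := ih (s.erase j).card
      (by rw [← hs']; exact Finset.card_erase_lt_of_mem hjs) (s.erase j)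
      (Finset.mem_erase.mpr ⟨hji.symm, hs⟩) rfl
    have hσj : σ j = .one := hoff j (by simp)
    set P : Mt := pureMat (Function.update (fun l => (σ l).mat D) i 1) with hP
    have hmon : (mon σ) = slot i (D.rk1 u u) * P := by
      rw [hP, ← show (σ i).mat D = D.rk1 u u by rw [hσi]; rfl]
      exact pureMat_eq_slot_mul _ i
    have hPj : SlotFree j P :=
      SlotFree.pureMat (by rw [Function.update_of_ne hji, hσj]; rfl)
    have hPi : SlotFree i P := SlotFree.pureMat (by simp)
    have hZi : SlotFree i Z := hZ i (Finset.mem_erase.mpr ⟨hji.symm, hs⟩)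
    rw [hmon, mul_assoc] at hE
    have hdiff := fun v => hM.differences hD hji.symm hD.rk1_mul_self (hPi.mul hZi) hE v
    -- compressions of the new position
    set C : (Fin k → F) → (Fin k → F) → Mt := fun p q => ptrace j (Jv p) q Z with hC
    have hsand : ∀ a p q b, slot j (D.rk1 a p) * Z * slot j (D.rk1 q b) =
        slot j (D.rk1 a b) * C p q := fun a p q b => sandwich_ptrace j a (Jv p) q (Jv b) Z
    have hCfree : ∀ p q, ∀ l ∈ s, SlotFree l (C p q) := by
      intro p q l hl
      by_cases h : l = j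
      · subst h; exact slotFree_ptrace _ _ _ _
      · exact (hZ l (Finset.mem_erase.mpr ⟨h, hl⟩)).ptrace h _ _
    have hupd : ∀ (g₀ : Fac k F) (W : Mt), slot i (D.rk1 u u) * (P * (slot j (g₀.mat D) * W)) =
        (mon (Function.update σ j g₀)) * W := by
      intro g₀ W
      rw [← mul_assoc P, hP, pureMat_mul_slot, ← mul_assoc, slot_mul_pureMat]
      congr 2
      funext l
      by_cases hli : l = i
      · subst hli
        simp [Function.update_of_ne hji.symm, hσi, Fac.mat]
      · by_cases hlj : l = j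
        · subst hlj; simp [hli, hσj, Fac.mat]
        · simp [hli, hlj]
    have hstep : ∀ (g₀ : Fac k F) (W : Mt), g₀.Ok D → g₀ ≠ .one → W ≠ 0 →
        (∀ l ∈ s, SlotFree l W) → Ex M ((mon (Function.update σ j g₀)) * W) →
        ∃ (σ : Fin t → Fac k F) (Z : Mt), (∀ j, (σ j).Ok D) ∧ σ i = .nn u ∧
          (∀ j, j ∉ s → σ j = .one) ∧ (∀ j ∈ s, SlotFree j Z) ∧ Z ≠ 0 ∧ Ex M ((mon σ) * Z) ∧
          ((∃ j, j ≠ i ∧ σ j ≠ .one) ∨ ∀ c : F, Z ≠ c • 1) := by
      intro g₀ W hg₀ hne₀ hW hWs hEW
      refine ⟨Function.update σ j g₀, W, fun l => ?_, ?_, fun l hl => ?_, hWs, hW, hEW,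
        Or.inl ⟨j, hji, by rwa [Function.update_self]⟩⟩
      · by_cases h : l = j
        · subst h; rwa [Function.update_self]
        · rw [Function.update_of_ne h]; exact hσ l
      · rwa [Function.update_of_ne hji.symm]
      · have : l ≠ j := fun h => hl (h ▸ hjs)
        rw [Function.update_of_ne this]
        exact hoff l fun h => hl (Finset.mem_of_mem_erase h)
    by_cases hphi : ∃ v, C v v ≠ 0
    · obtain ⟨v, hv⟩ := hphi
      have hv0 : v ≠ 0 := fun h => hv (by
        rw [hC, h]
        show ptrace j (D.J *ᵥ (0 : Fin k → F)) 0 Z = 0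
        rw [Matrix.mulVec_zero, ← zero_smul F (0 : Fin k → F), ptrace_smul_left, zero_smul])
      refine hstep (.nn v) (C v v) hv0 (by simp) hv (hCfree v v) ?_
      have key : slot i (D.rk1 u u) * (P * (slot j ((Fac.nn v : Fac k F).mat D) * C v v)) =
          slot j (D.rk1 v v) * (slot i (D.rk1 u u) * (P * Z)) * slot j (D.rk1 v v) := by
        rw [show (Fac.nn v : Fac k F).mat D = D.rk1 v v from rfl, ← hsand v v v v]
        simp only [mul_assoc]
        rw [← mul_assoc (slot j (D.rk1 v v)) (slot i (D.rk1 u u)), slot_commute hji,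
          mul_assoc (slot i (D.rk1 u u)), ← mul_assoc (slot j (D.rk1 v v)) P, hPj, mul_assoc P]
      rw [← hupd, key]
      exact (hdiff v).1
    push Not at hphi
    have hanti : ∀ p q, C p q = -C q p := fun p q => by
      have := hphi (p + q)
      simp only [hC, Jv, Matrix.mulVec_add, ptrace_add_left, ptrace_add_right] at this hphi ⊢
      rw [hphi p, hphi q, zero_add, add_zero] at this
      rw [eq_neg_iff_add_eq_zero, ← this]
      abel
    by_cases hpsi : ∃ a b, D.f1 a b = 0 ∧ C a b ≠ 0
    · obtain ⟨a, b, hab, hCab⟩ := hpsi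
      have hb0 : b ≠ 0 := fun h => hCab (by
        rw [hC, h]
        show ptrace j _ 0 Z = 0
        rw [← zero_smul F (0 : Fin k → F), ptrace_smul_right, zero_smul])
      have hind : a ∉ Submodule.span F {b} := fun h => hCab (by
        obtain ⟨c, rfl⟩ := Submodule.mem_span_singleton.mp h
        show ptrace j (D.J *ᵥ (c • b)) b Z = 0
        rw [Matrix.mulVec_smul, ptrace_smul_left, show ptrace j (D.J *ᵥ b) b Z = 0 from hphi b,
          smul_zero])
      refine hstep (.pp a b) (C a b) ⟨hab, hb0, hind⟩ (by simp) hCab (hCfree a b) ?_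
      have hW := hPi.mul hZi
      have hNi : SlotFree i (slot j (D.rk1 b b)) := SlotFree.slot hji.symm _
      have hb := (hdiff b).2
      have hform : slot j (D.rk1 b b) * (slot i (D.rk1 u u) * (P * Z)) -
          slot i (D.rk1 u u) * (P * Z) * slot j (D.rk1 b b) =
          slot i (D.rk1 u u) * (slot j (D.rk1 b b) * (P * Z) - P * Z * slot j (D.rk1 b b)) := by
        rw [mul_sub, ← mul_assoc, slot_commute hji, mul_assoc, mul_assoc (slot i _) (P * Z)]
      rw [hform] at hb
      have h2 := (hM.differences hD hji.symm hD.rk1_mul_self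
        ((hNi.mul hW).sub (hW.mul hNi)) hb a).2
      rw [← hupd]
      refine (Ex.smul (neg_ne_zero.mpr (one_ne_zero (α := F)))).mp ?_
      convert h2 using 1
      have hz1 : slot j (D.rk1 a a) * slot j (D.rk1 b b) = 0 := by
        rw [← map_mul, hD.rk1_mul, show D.f1 b a = 0 from (Symp.eq_zero_comm hf).mp hab,
          zero_smul, map_zero]
      have hz2 : slot j (D.rk1 b b) * slot j (D.rk1 a a) = 0 := by
        rw [← map_mul, hD.rk1_mul, hab, zero_smul, map_zero]
      have key : slot j (D.rk1 a a) * (slot j (D.rk1 b b) * (P * Z) - P * Z * slot j (D.rk1 b b)) -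
          (slot j (D.rk1 b b) * (P * Z) - P * Z * slot j (D.rk1 b b)) * slot j (D.rk1 a a) =
          -(P * (slot j ((Fac.pp a b : Fac k F).mat D) * C a b)) := by
        have e : ∀ X Y : Mk, slot j X * (P * Z) * slot j Y = P * (slot j X * Z * slot j Y) :=
          fun X Y => by rw [← mul_assoc, hPj]; simp only [mul_assoc]
        rw [mul_sub, sub_mul, ← mul_assoc, hz1, zero_mul, ← mul_assoc, mul_assoc (P * Z), hz2,
          mul_zero, e, e, hsand, hsand, hanti b a,
          show (Fac.pp a b : Fac k F).mat D = D.rk1 a b - D.rk1 b a from rfl, map_sub, sub_mul,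
          mul_sub]
        simp only [mul_neg, sub_zero, zero_sub]
        abel
      have hiA : ∀ W : Mt, slot j (D.rk1 a a) * (slot i (D.rk1 u u) * W) =
          slot i (D.rk1 u u) * (slot j (D.rk1 a a) * W) := fun W => by
        rw [← mul_assoc, slot_commute hji, mul_assoc]
      rw [hiA, mul_assoc (slot i _) _ (slot j (D.rk1 a a)), ← mul_sub, key]
      simp
    -- nothing happens at position `j`
    push Not at hpsi
    have hk1 : ∃ x : Fin k → F, x ≠ 0 :=
      ⟨Pi.single 0 1, fun h => by simpa using congrFun h 0⟩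
    obtain ⟨e₁, he₁⟩ := hk1
    obtain ⟨e₂, -, he⟩ := Symp.exists_perp_one hf (U := ⊥) (x := e₁) (by simpa using he₁)
    have hprop : ∀ p q r, D.f1 r q = 1 → C p q = D.f1 p q • C r q := fun p q r hr => by
      have h := hpsi (p - D.f1 p q • r) q (by
        rw [Symp.sub_left hf, hf.bilinear.smul_left, hr, mul_one, sub_self])
      simp only [hC, Jv, sub_eq_add_neg, ← neg_smul, Matrix.mulVec_add, Matrix.mulVec_smul,
        ptrace_add_left, ptrace_smul_left] at h ⊢
      rw [neg_smul, ← sub_eq_add_neg, sub_eq_zero] at h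
      exact h
    have hd : ∀ q, q ≠ 0 → ∃ r, D.f1 r q = 1 ∧ C r q = C e₁ e₂ := by
      have base : ∀ p q, D.f1 p q ≠ 0 → ∀ r r', D.f1 r q = 1 → D.f1 r' p = 1 →
          C r q = C r' p := by
        intro p q hpq r r' hr hr'
        have h1 := hprop p q r hr
        have h2 := hprop q p r' hr'
        rw [hanti q p, h1, hf.skew q p, neg_smul, neg_inj] at h2
        exact smul_right_injective _ hpq h2
      intro q hq
      have hk : ∀ x : Fin k → F, x ≠ 0 → ¬ (⊤ : Submodule F (Fin k → F)) ≤
          LinearMap.ker ((Symp.fl hf).flip x) := fun x hx hle => by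
        obtain ⟨p, hp⟩ := (hf.nondegenerate x hx).2
        exact hp (hle (Submodule.mem_top (x := p)))
      have he₂ : e₂ ≠ 0 := fun h => one_ne_zero (α := F) (by rw [← he, h, Symp.zero_right hf])
      obtain ⟨p, -, hp1, hp2⟩ := exists_mem_notMem_notMem (hk q hq) (hk e₂ he₂)
      simp only [LinearMap.mem_ker, LinearMap.flip_apply, Symp.fl_apply] at hp1 hp2
      obtain ⟨r', -, hr'⟩ := Symp.exists_perp_one hf (U := ⊥) (x := p) (by
        simpa using fun h : p = 0 => hp1 (by rw [h, Symp.zero_right hf]))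
      have hr'' : D.f1 (-r') p = 1 := by rw [Symp.neg_left hf, ← hf.skew, hr']
      obtain ⟨r, -, hr⟩ := Symp.exists_perp_one hf (U := ⊥) (x := q) (by simpa using hq)
      have hrq : D.f1 (-r) q = 1 := by rw [Symp.neg_left hf, ← hf.skew, hr]
      refine ⟨-r, hrq, ?_⟩
      rw [base p q (fun h => hp1 ((Symp.eq_zero_comm hf).mp h)) (-r) (-r') hrq hr'',
        base p e₂ (fun h => hp2 ((Symp.eq_zero_comm hf).mp h)) e₁ (-r') he hr'']
    have hall : ∀ p q, C p q = D.f1 p q • C e₁ e₂ := fun p q => by
      by_cases hq : q = 0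
      · simp only [hC, Jv, hq, Symp.zero_right hf, zero_smul]
        rw [← zero_smul F (0 : Fin k → F), ptrace_smul_right, zero_smul]
      · obtain ⟨r, hr, hrC⟩ := hd q hq
        rw [hprop p q r hr, hrC]
    have hpt : ∀ φ c, ptrace j φ c Z = -((c ⬝ᵥ φ) • C e₁ e₂) := fun φ c => by
      have hu' : IsUnit D.J.det := isUnit_iff_ne_zero.mpr D.det
      have := hall (D.J⁻¹ *ᵥ φ) c
      simp only [hC, Jv, Matrix.mulVec_mulVec, Matrix.mul_nonsing_inv _ hu', Matrix.one_mulVec]
        at this ⊢
      rw [this, hf.skew, hD.f1_eq, Matrix.mulVec_mulVec, Matrix.mul_nonsing_inv _ hu',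
        Matrix.one_mulVec]
      simp
    have hZC : Z = -C e₁ e₂ := by
      have e : ∀ p q : Fin k, slot j (Matrix.single p p (1 : F)) * Z *
          slot j (Matrix.single q q (1 : F)) =
          slot j (Matrix.single p q (1 : F)) *
            ptrace j (Pi.single p 1) (Pi.single q 1) Z := fun p q => by
        rw [Matrix.single_eq_single_vecMulVec_single, Matrix.single_eq_single_vecMulVec_single,
          Matrix.single_eq_single_vecMulVec_single]
        exact sandwich_ptrace j _ _ _ _ _
      calc Z = slot j (∑ p, Matrix.single p p (1 : F)) * Z *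
            slot j (∑ q, Matrix.single q q (1 : F)) := by
            rw [Matrix.sum_single_eq_diagonal, Matrix.diagonal_one, map_one, one_mul, mul_one]
        _ = ∑ p, ∑ q, slot j (Matrix.single p p (1 : F)) * Z *
            slot j (Matrix.single q q (1 : F)) := by
            simp only [map_sum]
            rw [Finset.sum_mul, Finset.sum_mul]
            exact Finset.sum_congr rfl fun p _ => Finset.mul_sum _ _ _
        _ = slot j (∑ p, Matrix.single p p (1 : F)) * -C e₁ e₂ := by
            rw [map_sum, Finset.sum_mul]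
            refine Finset.sum_congr rfl fun p _ => ?_
            rw [Finset.sum_eq_single p]
            · rw [e, hpt]; simp
            · intro q _ hq
              rw [e, hpt]
              simp [hq]
            · exact fun h => absurd (Finset.mem_univ p) h
        _ = _ := by
            rw [Matrix.sum_single_eq_diagonal, Matrix.diagonal_one, map_one, one_mul]
    refine ⟨σ, Z, hσ, hσi, fun l hl => hoff l fun h => hl (Finset.mem_of_mem_erase h),
      fun l hl => ?_, hZ0, ?_, hflag⟩
    · rw [hZC, ← neg_one_smul F (C e₁ e₂)]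
      exact (hCfree e₁ e₂ l hl).smul _
    · rw [hmon, mul_assoc]
      exact hE

end CfsgLib.Geometric.TensorForm
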