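import Cfsg.Agent.Lib.Geometric.TensorForm.Word

/-!
Pairs of root elements in a group of units of an algebra without larger radical: the corner
`N * N' * N` of a pair which is minimal among the non-scalar ones, and the conjugates of `N` by
words with a zero lower left entry at a root.
-/

set_option autoImplicit false
set_option linter.unusedSectionVars false

namespace CfsgLib.Geometric.TensorForm

open Polynomial

variable {F : Type*} [Field F] {A : Type*} [Ring A] [Algebra F A]

/-- `N` squares to zero and all `1 + a • N` lie in `M`. -/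
structure Root (F : Type*) [Field F] {A : Type*} [Ring A] [Algebra F A] (M : Subgroup Aˣ) (N : A) :
    Prop where
  sq : N * N = 0
  mem : ∀ a : F, InM M (1 + a • N)

/-- All elements of the corner of `N` in `M` are scalar. -/
def NoBig (F : Type*) [Field F] {A : Type*} [Ring A] [Algebra F A] (M : Subgroup Aˣ) (N : A) :
    Prop :=
  ∀ A₀ : A, InM M (1 + N * A₀ * N) → ∃ c : F, N * A₀ * N = c • N

variable (F) in
/-- The corner `N * N' * N` is a scalar multiple of `N`. -/
def IsScal (N N' : A) : Prop := ∃ c : F, N * N' * N = c • N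

/-- Every relation of the pair vanishes at zero. -/
def Sing (F : Type*) [Field F] {A : Type*} [Ring A] [Algebra F A] (N N' : A) : Prop :=
  ∀ p : F[X], psi N N' p = 0 → p.eval 0 = 0

variable {N N' : A} {M : Subgroup Aˣ}

lemma Root.inM_sub (hN : Root F M N) {Y : A} (c : F) (hY : Y * N = 0)
    (h : InM M (1 + (c • N + Y))) : InM M (1 + Y) := by
  refine (show 1 + Y = (1 + (c • N + Y)) * (1 + (-c) • N) from ?_) ▸ h.mul (hN.mem _)
  simp [mul_add, add_mul, hY, hN.sq]
  abel

/-- An element of the corner in `M` is scalar. -/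
lemma scal_of_inM (hN : Root F M N) (hB : NoBig F M N) (g : F[X])
    (h : InM M (1 + psi N N' g)) : ∃ s : F, psi N N' g = s • N := by
  have e : psi N N' g = g.eval 0 • N + N * (ev N N' g.divX * N') * N := by
    conv_lhs => rw [← X_mul_divX_add g]
    rw [map_add, add_comm, psi_C, coeff_zero_eq_eval_zero, psi_apply, mul_comm X, map_mul, ev_X,
      mul_assoc N, mul_assoc (ev N N' g.divX)]
  rw [e] at h
  obtain ⟨c, hc⟩ := hB _ (hN.inM_sub _ (by rw [mul_assoc, hN.sq, mul_zero]) h)
  exact ⟨g.eval 0 + c, by rw [e, hc, add_smul]⟩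

lemma psi_sub_C {g : F[X]} {s : F} (h : psi N N' g = s • N) : psi N N' (g - C s) = 0 := by
  rw [map_sub, psi_C, h, sub_self]

lemma psi_X : psi N N' (X : F[X]) = N * N' * N := by rw [psi_apply, ev_X, mul_assoc]

lemma isScal_of (h : ∃ s : F, psi N N' (X - C s) = 0) : IsScal F N N' := by
  obtain ⟨s, hs⟩ := h
  exact ⟨s, by rwa [map_sub, psi_C, sub_eq_zero, psi_X] at hs⟩

/-- The conjugate of `N` by a word is a root. -/
lemma Root.conj (hN : Root F M N) (hN' : Root F M N') {w : W4 F[X]} (hw : Word w) :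
    Root F M (lin N N' (conjW w)) := by
  have hi : elem N N' w.bar * elem N N' w = 1 := by
    have := elem_bar hN.sq hN'.sq (w := w.bar) (by rw [W4.dt_bar]; exact hw.dt)
    simpa [W4.bar] using this
  refine ⟨?_, fun a => ?_⟩
  · rw [← conj_elem hN.sq hN'.sq, show elem N N' w * N * elem N N' w.bar *
      (elem N N' w * N * elem N N' w.bar) =
      elem N N' w * (N * (elem N N' w.bar * elem N N' w) * N) * elem N N' w.bar by noncomm_ring,
      hi, mul_one, hN.sq, mul_zero, zero_mul]
  · have := ((inM_elem hN.sq hN'.sq hN.mem hN'.mem hw).mul (hN.mem a)).mul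
      (inM_elem hN.sq hN'.sq hN.mem hN'.mem hw.bar)
    rwa [mul_add, mul_one, add_mul, elem_bar hN.sq hN'.sq hw.dt, mul_smul_comm, smul_mul_assoc,
      conj_elem hN.sq hN'.sq] at this

variable (F) in
/-- The measure of a pair: the dimension of its corner, then invertibility. -/
noncomputable def meas (N N' : A) : ℕ :=
  open Classical in
  2 * Module.finrank F (LinearMap.range (psi (F := F) N N')) + if Sing F N N' then 0 else 1

variable (F M) in
/-- A non-scalar pair of least measure. -/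
structure Minimal (N N' : A) : Prop where
  root : Root F M N'
  nscal : ¬ IsScal F N N'
  le : ∀ N₂, Root F M N₂ → ¬ IsScal F N N₂ → meas F N N' ≤ meas F N N₂

lemma exists_minimal (h : ∃ N₂, Root F M N₂ ∧ ¬ IsScal F N N₂) : ∃ N', Minimal F M N N' := by
  classical
  have hex : ∃ n, ∃ N₂, Root F M N₂ ∧ ¬ IsScal F N N₂ ∧ meas F N N₂ = n :=
    let ⟨N₂, h1, h2⟩ := h; ⟨_, N₂, h1, h2, rfl⟩
  obtain ⟨N', h1, h2, h3⟩ := Nat.find_spec hex
  exact ⟨N', h1, h2, fun N₂ a b => h3 ▸ Nat.find_min' hex ⟨N₂, a, b, rfl⟩⟩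

variable (F) in
/-- The relations which let the conjugates be computed in the corner. -/
structure Clean (N N' : A) : Prop where
  sqf : ∀ g : F[X], psi N N' (X * (X * g)) = 0 → psi N N' (X * g) = 0
  left : ∀ g : F[X], psi N N' (X * g) = 0 → ev N N' (X * g) = 0
  right : ∀ g : F[X], psi N N' (X * g) = 0 → psi N N' g * N' = 0

lemma clean_of_not_sing (h : ¬ Sing F N N') : Clean F N N' := by
  simp only [Sing, not_forall] at h
  obtain ⟨p, hp, hp0⟩ := h
  have key : ∀ g : F[X], psi N N' (X * g) = 0 → psi N N' g = 0 := by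
    intro g hg
    have e : p.eval 0 • g = p * g - p.divX * (X * g) := by
      conv_rhs => arg 1; rw [← X_mul_divX_add p]
      rw [coeff_zero_eq_eval_zero, smul_eq_C_mul]; ring
    have := congrArg (psi N N') e
    rw [map_smul, map_sub, psi_mul_zero hp, psi_zero_mul hg, sub_zero, smul_eq_zero] at this
    exact this.resolve_left hp0
  exact ⟨fun g hg => key _ hg, fun g hg => by rw [ev_X_mul, key g hg, mul_zero],
    fun g hg => by rw [key g hg, zero_mul]⟩

lemma psi_lin_eq_zero {w : W4 F[X]} (ha : psi N N' w.a * N' = 0)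
    (hc : ev N N' w.c * N' = 0) (hd : ev N N' (X * w.d) = 0) :
    lin N N' w = psi N N' w.b := by
  rw [lin, ← psi_apply, ← psi_apply, ha, hc, ev_mul_Z, hd]
  simp

variable [FiniteDimensional F A]

lemma N_mul_lin (hN : N * N = 0) (hN' : N' * N' = 0) (w : W4 F[X]) :
    N * lin N N' w = lin N N' ⟨w.c, X * w.d, 0, 0⟩ := by
  have h := psi_mul_lin hN hN' (1 : F[X]) w
  rwa [psi_one, one_mul, one_mul] at h

lemma range_psi_conj (hN : Root F M N) (hN' : Root F M N') (w : W4 F[X]) :
    LinearMap.range (psi (F := F) N (lin N N' (conjW w))) ≤ LinearMap.range (psi (F := F) N N') := by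
  rintro _ ⟨p, rfl⟩
  exact ⟨_, (psi_conj hN.sq hN'.sq w p).symm⟩

lemma meas_conj_lt (hN : Root F M N) (hN' : Root F M N') (w : W4 F[X])
    (hs : Sing F N (lin N N' (conjW w)))
    (h : Sing F N N' → ∀ p : F[X], psi N N' (X - p.comp (-(X * w.c) ^ 2)) ≠ 0) :
    meas F N (lin N N' (conjW w)) < meas F N N' := by
  classical
  have hle := Submodule.finrank_mono (range_psi_conj hN hN' w)
  simp only [meas, if_pos hs]
  split_ifs with hS
  · have : LinearMap.range (psi (F := F) N (lin N N' (conjW w))) <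
        LinearMap.range (psi (F := F) N N') := by
      refine lt_of_le_of_ne (range_psi_conj hN hN' w) fun e => ?_
      obtain ⟨p, hp⟩ := e.ge ⟨X, rfl⟩
      refine h hS p ?_
      rw [map_sub, ← psi_conj hN.sq hN'.sq, hp, sub_self]
    have := Submodule.finrank_lt_finrank_of_lt this
    omega
  · omega

/-- A square zero corner gives a larger element of the radical. -/
lemma false_of_sq_zero (h2 : (2 : F) ≠ 0) (hN : Root F M N) (hB : NoBig F M N)
    (hN' : Root F M N') (hns : ¬ IsScal F N N') (hX : psi N N' (X * X : F[X]) = 0) : False := by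
  have hsq : ∀ (t : F), InM M (1 + lin N N' (⟨-(C (t * t) * X), C (2 * t) * X, 0,
      C (t * t) * X⟩ : W4 F[X])) ∧ InM M (1 - lin N N' (⟨-(C (t * t) * X), C (2 * t) * X, 0,
      C (t * t) * X⟩ : W4 F[X])) := by
    intro t
    set w : W4 F[X] := W4.low (C t) with hwdef
    have hw : Word w := Word.low_one t
    obtain ⟨N₂, hN₂⟩ : ∃ x, x = lin N N' (conjW w) := ⟨_, rfl⟩
    have hR : Root F M N₂ := hN₂ ▸ hN.conj hN' hw
    have hy : -(X * w.c) ^ 2 = X * X * (-(C t) ^ 2) := by
      rw [hwdef]; simp [W4.low]; ring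
    have e1 : N * N₂ * N = 0 := by
      rw [← psi_X (F := F), hN₂, psi_conj hN.sq hN'.sq, X_comp, hy, psi_mul_zero hX]
    have e2 : N₂ * N * N₂ = 0 := by
      have hb : N * lin N N' (conjW w.bar) * N = 0 := by
        rw [← psi_X (F := F), psi_conj hN.sq hN'.sq, X_comp,
          show (-(X * w.bar.c) ^ 2 : F[X]) = -(X * w.c) ^ 2 by simp [W4.bar], hy, psi_mul_zero hX]
      have hbb : w.bar.bar = w := by simp [W4.bar]
      rw [← conj_elem hN.sq hN'.sq w.bar, hbb] at hb
      rw [hN₂, ← conj_elem hN.sq hN'.sq, show elem N N' w * N * elem N N' w.bar * N *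
        (elem N N' w * N * elem N N' w.bar) = elem N N' w *
          (N * (elem N N' w.bar * N * elem N N' w) * N) * elem N N' w.bar by noncomm_ring,
        hb, mul_zero, zero_mul]
    have m1 := hN.mem 1
    have m2 := hR.mem 1
    have m3 := hN.mem (-1)
    have m4 := hR.mem (-1)
    rw [one_smul] at m1 m2
    rw [neg_one_smul, ← sub_eq_add_neg] at m3 m4
    have hc : N * N₂ - N₂ * N = lin N N' (⟨-(C (t * t) * X), C (2 * t) * X, 0,
        C (t * t) * X⟩ : W4 F[X]) := by
      rw [hN₂, lin_mul_N hN.sq hN'.sq, N_mul_lin hN.sq hN'.sq, sub_eq_add_neg, lin_neg, lin_add]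
      congr 1
      apply W4.ext <;> simp [hwdef, conjW, W4.low, Polynomial.C_ofNat] <;> ring
    refine ⟨?_, ?_⟩
    · rw [← hc, ← add_sub_assoc, ← commutator_eq hN.sq hR.sq e1 e2]
      exact (m1.mul m2).mul (m3.mul m4)
    · rw [← hc, sub_sub_eq_add_sub, ← commutator_eq hR.sq hN.sq e2 e1]
      exact (m2.mul m1).mul (m4.mul m3)
  have h1 := (hsq 1).1.mul (hsq (-1)).2
  have e : (1 + lin N N' (⟨-(C ((1 : F) * 1) * X), C (2 * 1) * X, 0, C (1 * 1) * X⟩ : W4 F[X])) *
      (1 - lin N N' (⟨-(C ((-1 : F) * -1) * X), C (2 * -1) * X, 0, C (-1 * -1) * X⟩ : W4 F[X])) =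
      1 + psi N N' (C (4 : F) * X) := by
    have h0 : ∀ g : F[X], psi N N' (X * X * g) = 0 := psi_mul_zero hX
    rw [sub_eq_add_neg, lin_neg, add_mul, one_mul, mul_add, mul_one, lin_mul hN.sq hN'.sq,
      add_assoc, ← add_assoc (lin N N' ⟨-(-(C ((-1 : F) * -1) * X)), -(C (2 * -1) * X), -0,
        -(C (-1 * -1) * X)⟩), lin_add, lin_add, psi_lin_eq_zero]
    · congr 1
      rw [← sub_eq_zero, ← map_sub]
      convert h0 (C (-4 : F) * X) using 2
      simp [map_ofNat]
      ring
    · dsimp only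
      convert congrArg (· * N') (h0 (-X)) using 1
      · congr 2
        simp [map_ofNat]
      · rw [zero_mul]
    · dsimp only
      simp
    · dsimp only
      convert congrArg (N' * ·) (h0 (-X)) using 1
      · rw [← ev_X_mul]
        congr 1
        simp [map_ofNat]
      · rw [mul_zero]
  rw [e] at h1
  obtain ⟨s, hs⟩ := scal_of_inM hN hB _ h1
  have h4 : (4 : F) ≠ 0 := by
    rw [show (4 : F) = 2 * 2 by norm_num]; exact mul_ne_zero h2 h2
  rw [← smul_eq_C_mul, map_smul, psi_X] at hs
  exact hns ⟨4⁻¹ * s, by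
    rw [mul_smul, ← hs, smul_smul, inv_mul_cancel₀ h4, one_smul]⟩

/-- A minimal non-scalar pair may be taken clean. -/
theorem exists_clean (h2 : (2 : F) ≠ 0) (hN : Root F M N) (hB : NoBig F M N)
    (h : ∃ N₂, Root F M N₂ ∧ ¬ IsScal F N N₂) : ∃ N', Minimal F M N N' ∧ Clean F N N' := by
  classical
  obtain ⟨N', hm⟩ := exists_minimal h
  by_cases hS : Sing F N N'
  swap
  · exact ⟨N', hm, clean_of_not_sing hS⟩
  have hN' := hm.root
  set w : W4 F[X] := W4.low (C 1) with hwdef
  have hw : Word w := Word.low_one 1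
  set N₁ := lin N N' (conjW w) with hN₁
  have hy : -(X * w.c) ^ 2 = -(X * X) := by rw [hwdef]; simp [W4.low]; ring
  have hcj : ∀ p : F[X], psi N N₁ p = psi N N' (p.comp (-(X * X))) := fun p => by
    rw [hN₁, psi_conj hN.sq hN'.sq, hy]
  have hns : ¬ IsScal F N N₁ := by
    rintro ⟨s, hs⟩
    rw [← psi_X (F := F), hcj, X_comp, map_neg, neg_eq_iff_eq_neg, ← neg_smul] at hs
    have h0 := hS _ (psi_sub_C hs)
    simp at h0
    rw [h0, neg_zero, zero_smul] at hs
    exact false_of_sq_zero h2 hN hB hN' hm.nscal hs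
  have hS₁ : Sing F N N₁ := fun p hp => by
    rw [hcj] at hp
    simpa [eval_comp] using hS _ hp
  have hmeq : ¬ meas F N N₁ < meas F N N' := not_lt.mpr (hm.le _ (hN.conj hN' hw) hns)
  have hex : ∃ p : F[X], psi N N' (X - p.comp (-(X * w.c) ^ 2)) = 0 := by
    by_contra hno
    push Not at hno
    exact hmeq (meas_conj_lt hN hN' w hS₁ fun _ => hno)
  -- the relations of the pair have no square factor at zero
  have sqf : ∀ g : F[X], psi N N' (X * (X * g)) = 0 → psi N N' (X * g) = 0 := by
    obtain ⟨p, hp⟩ := hex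
    rw [hy] at hp
    have h0 : p.eval 0 = 0 := by
      have := hS _ hp
      simp [eval_comp] at this
      exact this
    intro g hg
    have e : X * g = (X - p.comp (-(X * X))) * g + (p.comp (-(X * X))) * g := by ring
    rw [e, map_add, psi_mul_zero hp, zero_add,
      show p.comp (-(X * X)) = -(X * X) * p.divX.comp (-(X * X)) by
        conv_lhs => rw [← X_mul_divX_add p]
        rw [coeff_zero_eq_eval_zero, h0, map_zero, add_zero, mul_comp, X_comp],
      show -(X * X) * p.divX.comp (-(X * X)) * g =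
        X * (X * g) * -(p.divX.comp (-(X * X))) by ring, psi_mul_zero hg]
  have hw1 : conjW w = ⟨-1, 1, -X, 1⟩ := by
    rw [hwdef]; apply W4.ext <;> simp [conjW, W4.low]
  have down : ∀ g : F[X], psi N N₁ (X * g) = 0 →
      psi N N' (X * g.comp (-(X * X))) = 0 := fun g hg => by
    rw [hcj, mul_comp, X_comp] at hg
    refine sqf _ ?_
    rw [← neg_eq_zero, ← map_neg, ← hg]
    congr 1; ring
  refine ⟨N₁, ⟨hN.conj hN' hw, hns, fun N₂ a b =>
    le_trans ?_ (hm.le N₂ a b)⟩, ⟨fun g hg => ?_, fun g hg => ?_, fun g hg => ?_⟩⟩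
  · simp only [meas, if_pos hS, if_pos hS₁]
    have := Submodule.finrank_mono (range_psi_conj hN hN' w)
    rw [← hN₁] at this
    omega
  · have hXg := down _ hg
    rw [mul_comp, X_comp, show X * (-(X * X) * g.comp (-(X * X))) =
      -(X * (X * (X * g.comp (-(X * X))))) by ring, map_neg, neg_eq_zero] at hXg
    have := sqf _ hXg
    rw [hcj, mul_comp, X_comp, show -(X * X) * g.comp (-(X * X)) =
      -(X * (X * g.comp (-(X * X)))) by ring, map_neg, this, neg_zero]
  · have hXg := down g hg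
    rw [ev_X_mul, hcj, hN₁, hw1, ← lin_b, lin_mul hN.sq hN'.sq, psi_lin_eq_zero]
    · dsimp only
      rw [show (-1 : F[X]) * X * g.comp (-(X * X)) + 1 * X * 0 =
        -(X * g.comp (-(X * X))) by ring, map_neg, hXg, neg_zero]
    · simp
    · simp
    · dsimp only
      rw [show X * (-X * g.comp (-(X * X)) + 1 * X * 0) =
        -(X * (X * g.comp (-(X * X)))) by ring, map_neg, ev_X_mul, hXg, mul_zero, neg_zero]
  · have hXg := down g hg
    rw [hcj, hN₁, hw1, psi_mul_lin hN.sq hN'.sq, psi_lin_eq_zero]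
    · dsimp only
      rw [mul_one, mul_comm, hXg]
    · dsimp only
      rw [show g.comp (-(X * X)) * -X = -(X * g.comp (-(X * X))) by ring, map_neg, hXg, neg_zero,
        zero_mul]
    · simp
    · simp

/-- Where a word has a lower left entry zero at a non-zero root, this entry is a relation and the
upper left entry has scalar square. -/
theorem key (h2 : (2 : F) ≠ 0) (hN : Root F M N) (hB : NoBig F M N) (hm : Minimal F M N N')
    (hC : Clean F N N') {L : Type*} [Field L] [Algebra F L] {r : L} (hr : r ≠ 0)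
    (hroot : ∀ p : F[X], psi N N' p = 0 → aeval r p = 0) {w : W4 F[X]} (hw : Word w)
    (hc : aeval r (X * w.c) = 0) :
    psi N N' (X * w.c) = 0 ∧ ∃ s : F, psi N N' ((1 + X * w.a) ^ 2) = s • N := by
  classical
  have hN' := hm.root
  obtain ⟨N₂, hN₂⟩ : ∃ x, x = lin N N' (conjW w) := ⟨_, rfl⟩
  have hR : Root F M N₂ := hN₂ ▸ hN.conj hN' hw
  have hy : ∀ p : F[X], aeval r (p.comp (-(X * w.c) ^ 2)) = algebraMap F L (p.eval 0) := by
    intro p
    rw [aeval_comp]
    simp only [map_neg, map_pow, hc]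
    simp [aeval_def, eval₂_at_zero, coeff_zero_eq_eval_zero]
  have hS₂ : Sing F N N₂ := fun p hp => by
    rw [hN₂, psi_conj hN.sq hN'.sq] at hp
    have := hroot _ hp
    rwa [hy, map_eq_zero] at this
  have hlt : meas F N N₂ < meas F N N' := hN₂ ▸ meas_conj_lt hN hN' w (hN₂ ▸ hS₂) fun hS p hp => by
    have h0 := hS _ hp
    have h1 := hroot _ hp
    simp [eval_comp] at h0
    rw [map_sub, aeval_X, hy, h0, map_zero, sub_zero] at h1
    exact hr h1
  obtain ⟨s, hs⟩ : IsScal F N N₂ := by
    by_contra hns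
    exact not_lt.mpr (hm.le _ hR hns) hlt
  rw [← psi_X (F := F), hN₂, psi_conj hN.sq hN'.sq, X_comp] at hs
  have hs0 : s = 0 := by
    have h1 := hroot _ (psi_sub_C hs)
    simpa [hc] using h1
  rw [hs0, zero_smul, map_neg, neg_eq_zero] at hs
  -- now the conjugate meets the root trivially
  have e1 : N * N₂ * N = 0 := by
    rw [← psi_X (F := F), hN₂, psi_conj hN.sq hN'.sq, X_comp, map_neg, hs, neg_zero]
  have e2 : N₂ * N * N₂ = 0 := by
    have hb : N * lin N N' (conjW w.bar) * N = 0 := by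
      rw [← psi_X (F := F), psi_conj hN.sq hN'.sq, X_comp, map_neg,
        show (X * w.bar.c) ^ 2 = (X * w.c) ^ 2 by simp [W4.bar], hs, neg_zero]
    have hbb : w.bar.bar = w := by simp [W4.bar]
    rw [← conj_elem hN.sq hN'.sq w.bar, hbb] at hb
    rw [hN₂, ← conj_elem hN.sq hN'.sq, show elem N N' w * N * elem N N' w.bar * N *
      (elem N N' w * N * elem N N' w.bar) = elem N N' w *
        (N * (elem N N' w.bar * N * elem N N' w) * N) * elem N N' w.bar by noncomm_ring,
      hb, mul_zero, zero_mul]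
  have m1 := hN.mem 1
  have m2 := hR.mem 1
  have m3 := hN.mem (-1)
  have m4 := hR.mem (-1)
  rw [one_smul] at m1 m2
  rw [neg_one_smul, ← sub_eq_add_neg] at m3 m4
  have hXc : psi N N' (X * w.c ^ 2) = 0 := hC.sqf _ (by rw [← hs]; congr 1; ring)
  have hcm := (m1.mul m2).mul (m3.mul m4)
  rw [commutator_eq hN.sq hR.sq e1 e2, add_sub_assoc, hN₂, lin_mul_N hN.sq hN'.sq,
    N_mul_lin hN.sq hN'.sq, sub_eq_add_neg, lin_neg,
    lin_add, psi_lin_eq_zero ?_ ?_ ?_] at hcm
  rotate_left
  · simp only [conjW]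
    rw [show -(X * w.c ^ 2) + -0 = -(X * w.c ^ 2) by ring, map_neg, hXc, neg_zero, zero_mul]
  · simp
  · simp only [conjW]
    rw [show X * (0 + -(-(X * w.c ^ 2))) = X * (X * w.c ^ 2) by ring, ev_X_mul, hXc, mul_zero]
  obtain ⟨s₁, hs₁⟩ := scal_of_inM hN hB _ hcm
  set α : F[X] := 1 + X * w.a with hα
  have heq : ∀ P : F[X], P = X * (conjW w).d + -((conjW w).a * X) →
      P = C 2 * (α * (X * w.c)) := by
    intro P hP
    rw [hP]
    simp [conjW, hα, map_ofNat]
    ring
  rw [heq _ rfl] at hs₁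
  have hαγ : psi N N' (α * (X * w.c)) = 0 := by
    have h1 := hroot _ (psi_sub_C hs₁)
    rw [map_sub, map_mul, map_mul, hc, mul_zero, mul_zero, zero_sub, neg_eq_zero, aeval_C,
      map_eq_zero] at h1
    rw [h1, zero_smul, ← smul_eq_C_mul, map_smul, smul_eq_zero] at hs₁
    exact hs₁.resolve_left h2
  have hγ : psi N N' (X * w.c) = 0 := by
    have hd := hw.dt
    simp only [W4.dt] at hd
    have e : X * w.c = α * (X * w.c) * (1 + X * w.d) - (X * w.c) ^ 2 * w.b := by
      rw [hα]; linear_combination -(X * X * w.c) * hd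
    rw [e, map_sub, psi_mul_zero hαγ, psi_mul_zero hs, sub_zero]
  refine ⟨hγ, scal_of_inM hN hB _ ?_⟩
  have hN₂' : N₂ = psi N N' (α ^ 2) := by
    rw [hN₂, psi_lin_eq_zero (w := conjW w) ?_ ?_ ?_]
    · rfl
    · simp only [conjW]
      exact hC.right _ (by
        rw [show X * -((1 + X * w.a) * w.c) = -(X * w.c * α) by rw [hα]; ring, map_neg,
          psi_mul_zero hγ, neg_zero])
    · simp only [conjW]
      rw [map_neg, hC.left _ hXc, neg_zero, zero_mul]
    · simp only [conjW]
      exact hC.left _ (by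
        rw [show X * ((1 + X * w.a) * w.c) = X * w.c * α by rw [hα]; ring, psi_mul_zero hγ])
  rw [← hN₂']
  exact m2

/-- With shears commuting up to `N`, an upper word with no constant in its lower left entry has a
scalar upper left entry. -/
theorem shift (h2 : (2 : F) ≠ 0) (hN : Root F M N) (hB : NoBig F M N) (hN' : Root F M N')
    (hC : Clean F N N') {S S' : A} {κ : F} (hκ : κ ≠ 0) (hS : Root F M S) (hS' : Root F M S')
    (h1 : N * S = 0) (h1' : S * N = 0) (h3 : N * S' = 0) (h3' : S' * N = 0)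
    (hSS : S * S' = κ • N) (hS'S : S' * S = (-κ) • N)
    {w : W4 F[X]} (hw : Word w) (hc : psi N N' (X * w.c) = 0) (hc0 : w.c.eval 0 = 0) :
    ∃ s : F, psi N N' (1 + X * w.a) = s • N := by
  have hN0 := hN.sq
  have hN'0 := hN'.sq
  have hcN : ev N N' w.c * N' = 0 := by
    have e : w.c = X * w.c.divX := by
      conv_lhs => rw [← X_mul_divX_add w.c]
      rw [coeff_zero_eq_eval_zero, hc0, map_zero, add_zero]
    rw [e] at hc
    rw [e, hC.left _ (hC.sqf _ hc), zero_mul]
  set u := ev (F := F) N N' with hu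
  set e := elem N N' w with he
  set e' := elem N N' w.bar with he'
  have hee : e * e' = 1 := elem_bar hN0 hN'0 hw.dt
  have he'e : e' * e = 1 := by
    have := elem_bar hN0 hN'0 (w := w.bar) (by rw [W4.dt_bar]; exact hw.dt)
    rwa [show w.bar.bar = w by simp [W4.bar], ← he, ← he'] at this
  have hl : ∀ Y, N * Y = 0 → ∀ g : F[X], N * u g * Y = 0 := fun Y hY g => by
    conv_lhs => rw [← X_mul_divX_add g]
    rw [map_add, mul_comm X, map_mul, hu, ev_X, mul_add, add_mul, mul_assoc N, mul_assoc,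
      mul_assoc N', hY, mul_zero, mul_zero, mul_zero, zero_add, ev, aeval_C, mul_assoc,
      ← Algebra.smul_def, mul_smul_comm, hY, smul_zero]
  have hr : ∀ Y, Y * N = 0 → ∀ g : F[X], Y * (N * u g) = 0 := fun Y hY g => by
    rw [← mul_assoc, hY, zero_mul]
  have eS : e * S = (1 + N * u w.a * N') * S := by
    rw [he, elem, lin, ← hu, hcN]
    simp only [add_mul, add_zero, one_mul, hl S h1]
    rw [mul_assoc (u w.d), mul_assoc N', h1, mul_zero, mul_zero, add_zero]
  have eS' : S * e' = S * (1 + u w.a * (N' * N)) := by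
    rw [he', elem, lin]
    simp only [W4.bar, map_neg, neg_mul, hcN, neg_zero, add_zero, mul_add, mul_neg, ← hu]
    rw [← mul_assoc S (N * u w.d), hr S h1', zero_mul, hr S h1']
    simp
  set T := e * S * e' with hT
  have hT' : T = (1 + N * u w.a * N') * S * (1 + u w.a * (N' * N)) := by
    rw [hT, eS, mul_assoc, eS', ← mul_assoc]
  have hψ : psi N N' (1 + X * w.a) = N + N * u w.a * (N' * N) := by
    rw [map_add, psi_one, mul_comm X, psi_apply, map_mul, ev_X, ← hu, mul_assoc]
  have p1 : S' * T = (-κ) • psi N N' (1 + X * w.a) := by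
    rw [hT', ← mul_assoc, ← mul_assoc, mul_add S', mul_one, ← mul_assoc S', hr S' h3', zero_mul,
      add_zero, hS'S, smul_mul_assoc, mul_add, mul_one, ← mul_assoc N, hψ]
  have p2 : T * S' = κ • psi N N' (1 + X * w.a) := by
    have a1 : (1 + u w.a * (N' * N)) * S' = S' := by
      rw [add_mul, one_mul, mul_assoc (u w.a), mul_assoc N', h3, mul_zero, mul_zero, add_zero]
    rw [hT', mul_assoc, a1, mul_assoc, hSS, mul_smul_comm, add_mul, one_mul, hψ,
      mul_assoc (N * u w.a)]
  have hT0 : T * T = 0 := by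
    rw [hT, show e * S * e' * (e * S * e') = e * (S * (e' * e) * S) * e' by noncomm_ring, he'e,
      mul_one, hS.sq, mul_zero, zero_mul]
  have e1 : S' * T * S' = 0 := by
    rw [mul_assoc, p2, mul_smul_comm, psi_apply, hr S' h3', smul_zero]
  have e2 : T * S' * T = 0 := by
    rw [p2, smul_mul_assoc, psi_apply, hT', mul_assoc (1 + N * u w.a * N'), ← mul_assoc,
      mul_add (N * ev N N' (1 + X * w.a)), mul_one, mul_assoc N (ev N N' (1 + X * w.a)),
      mul_assoc N (u w.a), ← mul_assoc (ev N N' (1 + X * w.a)),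
      ev_mul_N hN0 hN'0, smul_mul_assoc, mul_smul_comm, ← mul_assoc N N, hN0, zero_mul, smul_zero,
      add_zero, ← mul_assoc, ← hu, hl S h1, zero_mul, smul_zero]
  have mT : ∀ a : F, InM M (1 + a • T) := fun a => by
    have := ((inM_elem hN0 hN'0 hN.mem hN'.mem hw).mul (hS.mem a)).mul
      (inM_elem hN0 hN'0 hN.mem hN'.mem hw.bar)
    rwa [← he, ← he', mul_add, mul_one, add_mul, hee, mul_smul_comm, smul_mul_assoc, ← hT] at this
  have m1 := hS'.mem 1
  have m2 := mT 1
  have m3 := hS'.mem (-1)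
  have m4 := mT (-1)
  rw [one_smul] at m1 m2
  rw [neg_one_smul, ← sub_eq_add_neg] at m3 m4
  have hcm := (m1.mul m2).mul (m3.mul m4)
  rw [commutator_eq hS'.sq hT0 e1 e2, p1, p2, add_sub_assoc, ← sub_smul, ← map_smul] at hcm
  obtain ⟨s, hs⟩ := scal_of_inM hN hB _ hcm
  have hne : -κ - κ ≠ 0 := by
    rw [show -κ - κ = -(2 * κ) by ring, neg_ne_zero]
    exact mul_ne_zero h2 hκ
  refine ⟨(-κ - κ)⁻¹ * s, ?_⟩
  rw [mul_smul, ← hs, map_smul, smul_smul, inv_mul_cancel₀ hne, one_smul]

end CfsgLib.Geometric.TensorForm
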