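import Cfsg.Agent.Lib.Geometric.TensorForm.Basic
import Cfsg.Agent.Lib.Geometric.SOTensor.Max
import Cfsg.Agent.Lib.Geometric.Orth.Values

/-!
# Odd tensor powers of symplectic forms: generation and transfer

An overgroup of the isometries inside the wreath product containing a transvection at a pure tensor
contains all transvections; the maximality statement in standard coordinates carries over to any
form similar to a tensor power.
-/

set_option autoImplicit false
set_option linter.unusedSectionVars false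

namespace CfsgLib.Geometric.TensorForm

open scoped Matrix MatrixGroups
open Matrix CfsgLib.SmallDim Cfsg.Geo

variable {k t : ℕ} {F : Type*} [Field F]

local notation "Mk" => Matrix (Fin k) (Fin k) F
local notation "Mt" => Matrix (Fin t → Fin k) (Fin t → Fin k) F

/-- Maximality is transported by isomorphisms. -/
lemma isMaximalIn_transport {G G' : Type*} [Group G] [Group G'] (φ : G ≃* G') {K H : Subgroup G}
    {K' H' : Subgroup G'} (hK : K.map φ.toMonoidHom = K') (hH : H.map φ.toMonoidHom = H')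
    (h : IsMaximalIn K' H') : IsMaximalIn K H := by
  have hle : ∀ A B : Subgroup G, A.map φ.toMonoidHom ≤ B.map φ.toMonoidHom ↔ A ≤ B := fun A B =>
    Subgroup.map_le_map_iff_of_injective φ.injective
  have heq : ∀ A B : Subgroup G, A.map φ.toMonoidHom = B.map φ.toMonoidHom → A = B := fun A B h' =>
    le_antisymm ((hle _ _).mp h'.le) ((hle _ _).mp h'.ge)
  subst hK hH
  refine ⟨lt_of_le_of_ne ((hle _ _).mp h.1.le) fun e => h.1.ne (by rw [e]), fun M hHM hMK => ?_⟩
  rcases h.2 _ ((hle _ _).mpr hHM) ((hle _ _).mpr hMK) with e | e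
  · exact Or.inl (heq _ _ e)
  · exact Or.inr (heq _ _ e)

namespace Datum

variable (D : Datum k F)

/-- The bilinear form of the tensor power. -/
def powF (t : ℕ) (x y : (Fin t → Fin k) → F) : F := x ⬝ᵥ (D.gram t *ᵥ y)

/-- An alternating datum: trivial automorphism and odd characteristic. -/
structure IsSymp : Prop where
  id : D.σ = RingHom.id F
  two : (2 : F) ≠ 0

variable {D} (hD : D.IsSymp)
include hD

lemma IsSymp.f1_eq (x y : Fin k → F) : D.f1 x y = x ⬝ᵥ (D.J *ᵥ y) := by
  rw [Datum.f1, hD.id]; rfl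

lemma IsSymp.symp_f1 : IsSymplecticForm D.f1 := by
  have hsk : ∀ v w, D.f1 v w = -D.f1 w v := fun v w => by
    rw [D.f1_swap w v, hD.id]; rfl
  refine ⟨⟨D.f1_add_left, D.f1_smul_left, D.f1_add_right, fun c v x => by
    rw [D.f1_smul_right, hD.id]; rfl⟩, hsk, fun v => ?_, fun v hv => ?_⟩
  · have h2 : (2 : F) * D.f1 v v = 0 := by linear_combination hsk v v
    exact (mul_eq_zero.mp h2).resolve_left hD.two
  · have h1 : ∃ x, D.f1 x v ≠ 0 := by
      by_contra h
      push Not at h
      refine hv (Matrix.eq_zero_of_mulVec_eq_zero D.det ?_)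
      funext i
      simpa [hD.f1_eq] using h (Pi.single i 1)
    obtain ⟨x, hx⟩ := h1
    exact ⟨⟨x, hx⟩, ⟨x, by rw [hsk, neg_ne_zero]; exact hx⟩⟩

lemma IsSymp.powF_pure (u v : Fin t → Fin k → F) :
    D.powF t (pureTensorVec u) (pureTensorVec v) = ∏ i, D.f1 (u i) (v i) := by
  rw [powF, gram, pureMat_mulVec, pureVec_dot]
  exact Finset.prod_congr rfl fun i _ => (hD.f1_eq _ _).symm

lemma IsSymp.isom_eq : D.isom t = CfsgLib.Geometric.isom (D.powF t) := by
  ext g
  rw [D.mem_isom, CfsgLib.Geometric.mem_isom_iff, hD.id]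
  have hm : (g : Mt).map (RingHom.id F) = (g : Mt) := by ext; rfl
  rw [hm]
  constructor
  · intro h u v
    show (g : Mt) *ᵥ u ⬝ᵥ (D.gram t *ᵥ ((g : Mt) *ᵥ v)) = _
    rw [Matrix.mulVec_mulVec, ← Matrix.vecMul_transpose, ← Matrix.dotProduct_mulVec,
      Matrix.mulVec_mulVec, ← Matrix.mul_assoc, h]
    rfl
  · intro h
    ext a b
    have := h (Pi.single a 1) (Pi.single b 1)
    change (g : Mt) *ᵥ Pi.single a 1 ⬝ᵥ (D.gram t *ᵥ ((g : Mt) *ᵥ Pi.single b 1)) = _ at this
    rw [Matrix.mulVec_mulVec, ← Matrix.vecMul_transpose, ← Matrix.dotProduct_mulVec,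
      Matrix.mulVec_mulVec, ← Matrix.mul_assoc] at this
    simpa [powF, Matrix.mulVec_single_one, single_dotProduct] using this

lemma IsSymp.symp_powF (ht : Odd t) : IsSymplecticForm (D.powF t) := by
  have hsk : ∀ v w, D.powF t v w = -D.powF t w v := fun v w => by
    have hmap : ∀ A : Mt, A.map (RingHom.id F) = A := fun A => by ext; rfl
    rw [powF, powF, Matrix.dotProduct_mulVec, ← Matrix.mulVec_transpose, D.gram_transpose, hD.id,
      hmap, Odd.neg_one_pow ht, neg_smul, one_smul, Matrix.neg_mulVec, neg_dotProduct,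
      dotProduct_comm w]
  refine ⟨⟨fun x y v => add_dotProduct _ _ _, fun c x v => smul_dotProduct c _ _, fun v x y => ?_,
    fun c v x => ?_⟩, hsk, fun v => ?_, fun v hv => ?_⟩
  · rw [powF, Matrix.mulVec_add, dotProduct_add]; rfl
  · rw [powF, Matrix.mulVec_smul, dotProduct_smul]; rfl
  · have h2 : (2 : F) * D.powF t v v = 0 := by linear_combination hsk v v
    exact (mul_eq_zero.mp h2).resolve_left hD.two
  · have h1 : ∃ x, D.powF t x v ≠ 0 := by
      by_contra h
      push Not at h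
      refine hv (Matrix.eq_zero_of_mulVec_eq_zero D.gram_det ?_)
      funext i
      simpa [powF] using h (Pi.single i 1)
    obtain ⟨x, hx⟩ := h1
    exact ⟨⟨x, hx⟩, ⟨x, by rw [hsk, neg_ne_zero]; exact hx⟩⟩

/-- Tensor products of isometries of the factor. -/
lemma IsSymp.pureGL_mem (a : Fin t → GL (Fin k) F)
    (ha : ∀ i, a i ∈ CfsgLib.Geometric.isom D.f1) :
    pureGL a ∈ tensorWreathStandard k t F ⊓ D.isom t := by
  refine ⟨Subgroup.subset_closure (Or.inl ⟨a, fun x y => rfl⟩), ?_⟩
  show (pureMat fun i => (a i : Mk))ᵀ * D.gram t * (pureMat fun i => (a i : Mk)).map D.σ = D.gram t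
  rw [pureMat_transpose, pureMat_map, gram, ← pureMat_mul, ← pureMat_mul]
  refine congrArg pureMat (funext fun i => ?_)
  ext p q
  have := CfsgLib.Geometric.mem_isom_iff.mp (ha i) (Pi.single p 1) (Pi.single q 1)
  rw [hD.f1_eq, hD.f1_eq] at this
  change (a i : Mk) *ᵥ Pi.single p 1 ⬝ᵥ (D.J *ᵥ ((a i : Mk) *ᵥ Pi.single q 1)) = _ at this
  rw [Matrix.mulVec_mulVec, ← Matrix.vecMul_transpose, ← Matrix.dotProduct_mulVec,
    Matrix.mulVec_mulVec, ← Matrix.mul_assoc] at this
  show ((a i : Mk)ᵀ * D.J * (a i : Mk).map D.σ) p q = D.J p q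
  rw [hD.id, show (a i : Mk).map (RingHom.id F) = (a i : Mk) by ext; rfl]
  simpa [Matrix.mulVec_single_one, single_dotProduct] using this

/-- A transvection at a pure tensor in an overgroup gives the whole isometry group. -/
theorem IsSymp.isom_le_of_pure [Finite F] (ht : Odd t) {M : Subgroup (GL (Fin t → Fin k) F)}
    (hH : tensorWreathStandard k t F ⊓ D.isom t ≤ M) (hM : M ≤ D.isom t)
    {w : Fin t → Fin k → F} (hw : ∀ i, w i ≠ 0) {κ : F} (hκ : κ ≠ 0)
    (h : Symp.T (hD.symp_powF ht) (pureTensorVec w) κ ∈ M) : D.isom t ≤ M := by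
  have hf := hD.symp_powF (t := t) ht
  have hf₁ := hD.symp_f1
  have hM' : M ≤ CfsgLib.Geometric.isom (D.powF t) := hD.isom_eq ▸ hM
  have hmove : ∀ u v : Fin t → Fin k → F, (∀ i, u i ≠ 0) → (∀ i, v i ≠ 0) → ∀ c,
      Symp.T hf (pureTensorVec u) c ∈ M → Symp.T hf (pureTensorVec v) c ∈ M := by
    intro u v hu hv c hc
    choose a ha hav using fun i => Symp.exists_isom_map hf₁ (hu i) (hv i)
    have hg := hH (hD.pureGL_mem a ha)
    have := M.mul_mem (M.mul_mem hg hc) (M.inv_mem hg)
    rw [Symp.conj_T hf (hM' hg)] at this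
    convert this using 2
    show pureTensorVec v = pureMat (fun i => (a i : Mk)) *ᵥ pureTensorVec u
    rw [pureMat_mulVec]
    exact congrArg pureTensorVec (funext fun i => (hav i).symm)
  obtain ⟨i₀⟩ : Nonempty (Fin t) := ⟨⟨0, ht.pos⟩⟩
  have hall : ∀ u : Fin t → Fin k → F, (∀ i, u i ≠ 0) → ∀ c,
      Symp.T hf (pureTensorVec u) c ∈ M := by
    intro u hu c
    have hsq : ∀ a : F, Symp.T hf (pureTensorVec u) (a * a * κ) ∈ M := by
      intro a
      by_cases ha : a = 0
      · simp [ha, Symp.T_zero_right]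
      have hua : ∀ i, Function.update u i₀ (a • u i₀) i ≠ 0 := fun i => by
        by_cases hi : i = i₀
        · subst hi; simpa [ha] using hu i
        · simpa [Function.update_of_ne hi] using hu i
      have := hmove w _ hw hua κ h
      rwa [pureVec_update_smul, Function.update_eq_self, Symp.T_smul] at this
    obtain ⟨a, b, hab⟩ := Orth.exists_combination (F := F) one_ne_zero one_ne_zero hD.two (c / κ)
    have := M.mul_mem (hsq a) (hsq b)
    rw [Symp.T_mul] at this
    convert this using 2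
    field_simp at hab
    linear_combination -hab
  rw [hD.isom_eq]
  refine Symp.isom_le_of_T_mem hf fun v c => Symp.T_mem_of_connected hf hD.two hM'
    (Pset := {p | ∃ u : Fin t → Fin k → F, (∀ i, u i ≠ 0) ∧ pureTensorVec u = p}) ?_ ?_ ?_ v c
  · rintro _ ⟨u, hu, rfl⟩ c
    exact hall u hu c
  · intro z hz
    by_contra hc
    push Not at hc
    obtain ⟨x, hx⟩ := (hf.nondegenerate z hz).2
    refine hx ?_
    have h0 : ∀ a : Fin t → Fin k, D.powF t z (Pi.single a 1) = 0 := fun a => by
      rw [← pureVec_single]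
      exact hc _ ⟨_, fun i => by simp, rfl⟩
    have : D.gram t *ᵥ x = ∑ a, x a • (D.gram t *ᵥ Pi.single a 1) := by
      funext b
      simp [Matrix.mulVec, dotProduct, mul_comm]
    rw [powF, this, dotProduct_sum]
    refine Finset.sum_eq_zero fun a _ => ?_
    rw [dotProduct_smul, show z ⬝ᵥ (D.gram t *ᵥ Pi.single a 1) = 0 from h0 a, smul_zero]
  · rintro _ ⟨u, hu, rfl⟩ _ ⟨v, hv, rfl⟩ - -
    have hk : ∀ x : Fin k → F, x ≠ 0 → ¬ (⊤ : Submodule F (Fin k → F)) ≤
        LinearMap.ker ((Symp.fl hf₁).flip x) := fun x hx hle => by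
      obtain ⟨p, hp⟩ := (hf₁.nondegenerate x hx).2
      exact hp (hle (Submodule.mem_top (x := p)))
    choose r _ hr1 hr2 using fun i => exists_mem_notMem_notMem (hk (u i) (hu i)) (hk (v i) (hv i))
    refine ⟨pureTensorVec r, ⟨r, fun i h0 => hr1 i (by simp [h0]), rfl⟩, ?_, ?_⟩
    · rw [hD.powF_pure]; exact Finset.prod_ne_zero_iff.mpr fun i _ => hr1 i
    · rw [hD.powF_pure]; exact Finset.prod_ne_zero_iff.mpr fun i _ => hr2 i

/-- The wreath product does not contain all isometries. -/
theorem IsSymp.not_isom_le [Finite F] (hk : 0 < k) (ht : Odd t) (ht2 : 2 ≤ t) :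
    ¬ D.isom t ≤ tensorWreathStandard k t F := by
  intro hle
  have hf := hD.symp_powF (t := t) ht
  have hf₁ := hD.symp_f1
  obtain ⟨x, hx⟩ : ∃ x : Fin k → F, x ≠ 0 :=
    ⟨Pi.single ⟨0, hk⟩ 1, fun h => by simpa using congrFun h ⟨0, hk⟩⟩
  obtain ⟨y, -, hxy⟩ := Symp.exists_perp_one hf₁ (U := ⊥) (x := x) (by simpa using hx)
  have hyx : D.f1 y x = -1 := by rw [hf₁.skew, hxy]
  let p : (Fin t → Fin k) → F := pureTensorVec fun _ => x
  let q : (Fin t → Fin k) → F := pureTensorVec fun _ => y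
  have hg : Symp.T hf p (-1) ∈ D.isom t := hD.isom_eq ▸ Symp.T_mem_isom hf p (-1)
  obtain ⟨w, hw⟩ := tensorWreathStandard_pureVec (hle hg) fun _ : Fin t => y
  have hqp : D.powF t q p = -1 := by
    show D.powF t (pureTensorVec fun _ => y) (pureTensorVec fun _ => x) = -1
    rw [hD.powF_pure]
    simp [hyx, ht.neg_one_pow]
  have hpw : pureTensorVec w = q + p := by
    rw [← hw]
    show ap (Symp.T hf p (-1)) q = _
    rw [Symp.ap_T hf, hqp]
    simp
  have hval : ∀ z : Fin t → Fin k → F, ∏ i, D.f1 (w i) (z i) =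
      ∏ i, D.f1 y (z i) + ∏ i, D.f1 x (z i) := fun z => by
    rw [← hD.powF_pure, hpw, hf.bilinear.add_left]
    show D.powF t (pureTensorVec fun _ => y) _ + D.powF t (pureTensorVec fun _ => x) _ = _
    rw [hD.powF_pure, hD.powF_pure]
  have ht0 : t ≠ 0 := by omega
  have hx' : ∀ i, D.f1 (w i) x ≠ 0 := by
    have := hval fun _ => x
    simp only [hyx, hf₁.alternating, Finset.prod_const, Finset.card_univ, Fintype.card_fin,
      zero_pow ht0, add_zero, ht.neg_one_pow] at this
    exact fun i => Finset.prod_ne_zero_iff.mp (by rw [this]; simp) i (Finset.mem_univ i)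
  have hy' : ∀ i, D.f1 (w i) y ≠ 0 := by
    have := hval fun _ => y
    simp only [hxy, hf₁.alternating, Finset.prod_const, Finset.card_univ, Fintype.card_fin,
      zero_pow ht0, zero_add, one_pow] at this
    exact fun i => Finset.prod_ne_zero_iff.mp (by rw [this]; simp) i (Finset.mem_univ i)
  let i₀ : Fin t := ⟨0, by omega⟩
  let i₁ : Fin t := ⟨1, by omega⟩
  have hne : i₁ ≠ i₀ := by simp [i₀, i₁, Fin.ext_iff]
  have hmix := hval (Function.update (fun _ => y) i₀ x)
  have e1 : ∏ i, D.f1 y (Function.update (fun _ : Fin t => y) i₀ x i) = 0 :=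
    Finset.prod_eq_zero (Finset.mem_univ i₁)
      (by rw [Function.update_of_ne hne]; exact hf₁.alternating y)
  have e2 : ∏ i, D.f1 x (Function.update (fun _ : Fin t => y) i₀ x i) = 0 :=
    Finset.prod_eq_zero (Finset.mem_univ i₀)
      (by rw [Function.update_self]; exact hf₁.alternating x)
  rw [e1, e2, add_zero] at hmix
  refine Finset.prod_ne_zero_iff.mpr (fun i _ => ?_) hmix
  by_cases hi : i = i₀
  · rw [hi, Function.update_self]; exact hx' i₀
  · rw [Function.update_of_ne hi]; exact hy' i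

/-- Maximality in standard coordinates from the existence of a pure transvection. -/
theorem IsSymp.isMaximalIn_of_key [Finite F] (hk : 0 < k) (ht : Odd t) (ht2 : 2 ≤ t)
    (key : ∀ M : Subgroup (GL (Fin t → Fin k) F), tensorWreathStandard k t F ⊓ D.isom t ≤ M →
      M ≤ D.isom t → ¬ M ≤ tensorWreathStandard k t F →
      ∃ (w : Fin t → Fin k → F) (κ : F), (∀ i, w i ≠ 0) ∧ κ ≠ 0 ∧
        Symp.T (hD.symp_powF ht) (pureTensorVec w) κ ∈ M) :
    IsMaximalIn (D.isom t) (tensorWreathStandard k t F ⊓ D.isom t) := by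
  refine ⟨lt_of_le_of_ne inf_le_right fun e => hD.not_isom_le hk ht ht2 (e.ge.trans inf_le_left),
    fun M hHM hMS => ?_⟩
  by_cases hle : M ≤ tensorWreathStandard k t F
  · exact Or.inl (le_antisymm (le_inf hle hMS) hHM)
  · obtain ⟨w, κ, hw, hκ, h⟩ := key M hHM hMS hle
    exact Or.inr (le_antisymm hMS (hD.isom_le_of_pure ht hHM hMS hw hκ h))

end Datum

/-- Maximality in the isometry group of any form similar to a tensor power of a symplectic form,
from the maximality in standard coordinates. -/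
theorem isMaximalIn_isom_of_standard {ι : Type} [Fintype ι] [DecidableEq ι]
    {f : (ι → F) → (ι → F) → F} {e : ι ≃ (Fin t → Fin k)} {P : GL ι F}
    {f₁ : (Fin k → F) → (Fin k → F) → F} (h2 : (2 : F) ≠ 0) (hf₁ : IsSymplecticForm f₁)
    (hT : IsTensorPowerFormStructure id f f₁ e P)
    (hstd : ∀ D : Datum k F, D.IsSymp →
      IsMaximalIn (D.isom t) (tensorWreathStandard k t F ⊓ D.isom t)) :
    IsMaximalIn (CfsgLib.Geometric.isom f)
      (tensorWreathSubgroup k t e P ⊓ CfsgLib.Geometric.isom f) := by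
  classical
  have hskew : (gramMatrix f₁)ᵀ = -((gramMatrix f₁).map (RingHom.id F)) := by
    ext a b
    simp only [Matrix.transpose_apply, Matrix.neg_apply, Matrix.map_apply, gramMatrix,
      RingHom.id_apply]
    exact hf₁.skew _ _
  have hdet : (gramMatrix f₁).det ≠ 0 := by
    intro h0
    obtain ⟨v, hv, hv0⟩ := Matrix.exists_mulVec_eq_zero_iff.mpr h0
    obtain ⟨x, hx⟩ := (hf₁.nondegenerate v hv).1
    refine hx ?_
    have hsum : ∀ y : Fin k → F, y = ∑ i, y i • (Pi.single i 1 : Fin k → F) := fun y => by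
      funext j; simp [Finset.sum_apply, Pi.single_apply]
    let l : (Fin k → F) →ₗ[F] (Fin k → F) →ₗ[F] F :=
      LinearMap.mk₂ F f₁ hf₁.bilinear.add_left hf₁.bilinear.smul_left hf₁.bilinear.add_right
        hf₁.bilinear.smul_right
    have hl : ∀ y z, f₁ y z = y ⬝ᵥ (gramMatrix f₁ *ᵥ z) := fun y z => by
      show l y z = _
      conv_lhs => rw [hsum y, hsum z]
      simp only [map_sum, LinearMap.sum_apply, map_smul, LinearMap.smul_apply, smul_eq_mul,
        dotProduct, Matrix.mulVec, gramMatrix, l, LinearMap.mk₂_apply, Finset.mul_sum]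
      rw [Finset.sum_comm]
      exact Finset.sum_congr rfl fun i _ => Finset.sum_congr rfl fun j _ => by ring
    rw [hl, hv0, dotProduct_zero]
  let D : Datum k F := ⟨gramMatrix f₁, RingHom.id F, fun _ => rfl, hskew, hdet⟩
  have hD : D.IsSymp := ⟨rfl, h2⟩
  let φ : GL ι F ≃* GL (Fin t → Fin k) F := (MulAut.conj P⁻¹).trans (glReindex e)
  let c : ((Fin t → Fin k) → F) → (ι → F) := fun x => (P : Matrix ι ι F) *ᵥ (x ∘ e)
  have hcsurj : Function.Surjective c := fun v =>
    ⟨(((P⁻¹ : GL ι F) : Matrix ι ι F) *ᵥ v) ∘ e.symm, by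
      show (P : Matrix ι ι F) *ᵥ _ = v
      rw [Function.comp_assoc, Equiv.symm_comp_self, Function.comp_id, Matrix.mulVec_mulVec,
        Units.mul_inv, Matrix.one_mulVec]⟩
  have hφ : ∀ g x, c (ap (φ g) x) = ap g (c x) := by
    intro g x
    have hre : ∀ A : Matrix ι ι F, (Matrix.reindex e e A *ᵥ x) ∘ e = A *ᵥ (x ∘ e) := fun A => by
      rw [Matrix.reindex_apply, Matrix.submatrix_mulVec_equiv, Function.comp_assoc,
        Equiv.symm_comp_self, Function.comp_id, Equiv.symm_symm]
    show (P : Matrix ι ι F) *ᵥ (((Matrix.reindex e e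
      ((P⁻¹ * g * P⁻¹⁻¹ : GL ι F) : Matrix ι ι F)) *ᵥ x) ∘ e) =
        (g : Matrix ι ι F) *ᵥ ((P : Matrix ι ι F) *ᵥ (x ∘ e))
    rw [hre, inv_inv, Units.val_mul, Units.val_mul, ← Matrix.mulVec_mulVec, ← Matrix.mulVec_mulVec,
      Matrix.mulVec_mulVec _ (P : Matrix ι ι F), Units.mul_inv, Matrix.one_mulVec]
  obtain ⟨κ, hκ, hT⟩ := hT
  have hform : ∀ x y, f (c x) (c y) = κ * D.powF t x y := by
    intro x y
    rw [hT]
    congr 1
    simp only [Datum.powF, Datum.gram, dotProduct, Matrix.mulVec, pureMat, Matrix.of_apply,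
      Finset.mul_sum, id_eq, D]
    exact Finset.sum_congr rfl fun a _ => Finset.sum_congr rfl fun b _ => by ring
  have hmem : ∀ g, φ g ∈ CfsgLib.Geometric.isom (D.powF t) ↔ g ∈ CfsgLib.Geometric.isom f := by
    intro g
    rw [CfsgLib.Geometric.mem_isom_iff, CfsgLib.Geometric.mem_isom_iff]
    constructor
    · intro h u v
      obtain ⟨x, rfl⟩ := hcsurj u
      obtain ⟨y, rfl⟩ := hcsurj v
      rw [← hφ, ← hφ, hform, hform, h]
    · intro h x y
      exact mul_left_cancel₀ hκ (by rw [← hform, ← hform, hφ, hφ, h])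
  have hK : (CfsgLib.Geometric.isom f).map φ.toMonoidHom = D.isom t := by
    rw [hD.isom_eq]
    ext z
    constructor
    · rintro ⟨g, hg, rfl⟩
      exact (hmem g).mpr hg
    · intro hz
      refine ⟨φ.symm z, (hmem _).mp ?_, φ.apply_symm_apply z⟩
      rwa [φ.apply_symm_apply]
  have hWW : (tensorWreathSubgroup k t e P).map φ.toMonoidHom = tensorWreathStandard k t F := by
    ext z
    constructor
    · rintro ⟨_, ⟨_, ⟨z', hz', rfl⟩, rfl⟩, rfl⟩
      show glReindex e (P⁻¹ * (P * glReindex e.symm z' * P⁻¹) * P⁻¹⁻¹) ∈ _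
      rw [show P⁻¹ * (P * glReindex e.symm z' * P⁻¹) * P⁻¹⁻¹ = glReindex e.symm z' by group,
        show glReindex e (glReindex (F := F) e.symm z') = z' from
          Units.ext (by ext a b; simp [glReindex])]
      exact hz'
    · intro hz
      refine ⟨_, ⟨_, ⟨z, hz, rfl⟩, rfl⟩, ?_⟩
      show glReindex e (P⁻¹ * (P * glReindex e.symm z * P⁻¹) * P⁻¹⁻¹) = z
      rw [show P⁻¹ * (P * glReindex e.symm z * P⁻¹) * P⁻¹⁻¹ = glReindex e.symm z by group]
      exact Units.ext (by ext a b; simp [glReindex])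
  refine isMaximalIn_transport φ hK ?_ (hstd D hD)
  rw [Subgroup.map_inf _ _ _ φ.injective, hK, hWW]

end CfsgLib.Geometric.TensorForm
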