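import Mathlib

/-!
The algebra generated by two square zero elements `N`, `N'`, written through polynomials in
`N' * N`, and the words in `1 + a • N` and `1 + b • N'` as two by two matrices over polynomials.
-/

set_option autoImplicit false
set_option linter.unusedSectionVars false

namespace CfsgLib.Geometric.TensorForm

open Polynomial

/-- `x` is an element of the group `M`. -/
def InM {A : Type*} [Monoid A] (M : Subgroup Aˣ) (x : A) : Prop := ∃ g ∈ M, (g : A) = x

lemma InM.mul {A : Type*} [Monoid A] {M : Subgroup Aˣ} {x y : A} (hx : InM M x) (hy : InM M y) :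
    InM M (x * y) := by
  obtain ⟨g, hg, rfl⟩ := hx
  obtain ⟨k, hk, rfl⟩ := hy
  exact ⟨g * k, mul_mem hg hk, rfl⟩

lemma InM.one {A : Type*} [Monoid A] (M : Subgroup Aˣ) : InM M (1 : A) := ⟨1, one_mem _, rfl⟩

lemma InM.of_mul_eq_one {A : Type*} [Monoid A] {M : Subgroup Aˣ} {x y : A} (hx : InM M x)
    (h : x * y = 1) : InM M y := by
  obtain ⟨g, hg, rfl⟩ := hx
  exact ⟨g⁻¹, inv_mem hg, Units.inv_eq_of_mul_eq_one_right h⟩

/-- The commutator of two quadratic elements whose cubic products vanish. -/
lemma commutator_eq {A : Type*} [Ring A] {x y : A} (hx : x * x = 0) (hy : y * y = 0)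
    (hxy : x * y * x = 0) (hyx : y * x * y = 0) :
    (1 + x) * (1 + y) * ((1 - x) * (1 - y)) = 1 + x * y - y * x := by
  have e : (1 + x) * (1 + y) * ((1 - x) * (1 - y)) = 1 + x * y - y * x
      - x * x - y * y + x * x * y + y * x * y - x * y * x - x * (y * y) + x * y * x * y := by
    noncomm_ring
  rw [e, hx, hy, hxy, hyx]
  simp

/-- A two by two matrix `[[1 + x a, b], [x c, 1 + x d]]`. -/
@[ext]
structure W4 (R : Type*) where
  /-- upper left -/
  a : R
  /-- upper right -/
  b : R
  /-- lower left -/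
  c : R
  /-- lower right -/
  d : R

namespace W4

variable {R : Type*} [CommRing R] (x : R)

/-- The matrix product. -/
def mul (v w : W4 R) : W4 R where
  a := v.a + w.a + v.a * x * w.a + v.b * w.c
  b := v.b + w.b + v.a * x * w.b + v.b * x * w.d
  c := v.c + w.c + v.c * x * w.a + v.d * x * w.c
  d := v.d + w.d + v.c * w.b + v.d * x * w.d

/-- The identity. -/
def one : W4 R := ⟨0, 0, 0, 0⟩

/-- An upper transvection. -/
def up (t : R) : W4 R := ⟨0, t, 0, 0⟩

/-- A lower transvection. -/
def low (t : R) : W4 R := ⟨0, 0, t, 0⟩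

/-- The adjugate. -/
def bar (v : W4 R) : W4 R := ⟨v.d, -v.b, -v.c, v.a⟩

/-- The determinant minus one, divided by `x`. -/
def dt (v : W4 R) : R := v.a + v.d + x * v.a * v.d - v.b * v.c

lemma mul_assoc' (u v w : W4 R) : mul x (mul x u v) w = mul x u (mul x v w) := by
  apply W4.ext <;> simp only [mul] <;> ring

lemma mul_one' (v : W4 R) : mul x v one = v := by
  apply W4.ext <;> simp only [mul, one] <;> ring

lemma one_mul' (v : W4 R) : mul x one v = v := by
  apply W4.ext <;> simp only [mul, one] <;> ring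

lemma bar_mul (v w : W4 R) : bar (mul x v w) = mul x (bar w) (bar v) := by
  apply W4.ext <;> simp only [mul, bar] <;> ring

lemma dt_mul (v w : W4 R) : dt x (mul x v w) = dt x v + dt x w + x * dt x v * dt x w := by
  simp only [mul, dt]; ring

lemma dt_bar (v : W4 R) : dt x (bar v) = dt x v := by
  simp only [bar, dt]; ring

/-- Apply a map to the entries. -/
def map {S : Type*} (φ : R → S) (v : W4 R) : W4 S := ⟨φ v.a, φ v.b, φ v.c, φ v.d⟩

lemma map_mul {S : Type*} [CommRing S] (φ : R →+* S) (v w : W4 R) :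
    map φ (mul x v w) = mul (φ x) (map φ v) (map φ w) := by
  apply W4.ext <;> simp [map, mul]

end W4

/-- The words in the upper transvections and the lower ones with an entry divisible by `X`. -/
inductive Word {F : Type*} [Field F] : W4 F[X] → Prop
  | one : Word W4.one
  | up {w : W4 F[X]} (t : F) : Word w → Word (W4.mul X w (W4.up (C t)))
  | low {w : W4 F[X]} (t : F) : Word w → Word (W4.mul X w (W4.low (C t)))

namespace Word

variable {F : Type*} [Field F]

lemma mul {v w : W4 F[X]} (hv : Word v) (hw : Word w) : Word (W4.mul X v w) := by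
  induction hw with
  | one => rw [W4.mul_one']; exact hv
  | up t _ ih => rw [← W4.mul_assoc']; exact ih.up t
  | low t _ ih => rw [← W4.mul_assoc']; exact ih.low t

lemma up_one (t : F) : Word (W4.up (C t)) := by
  simpa [W4.one_mul'] using Word.one.up t

lemma low_one (t : F) : Word (W4.low (C t)) := by
  simpa [W4.one_mul'] using Word.one.low t

lemma bar {w : W4 F[X]} (hw : Word w) : Word w.bar := by
  induction hw with
  | one => simpa [W4.bar, W4.one] using (Word.one : Word (W4.one : W4 F[X]))
  | up t _ ih =>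
    rw [W4.bar_mul]
    refine Word.mul ?_ ih
    simpa [W4.bar, W4.up] using up_one (-t)
  | low t _ ih =>
    rw [W4.bar_mul]
    refine Word.mul ?_ ih
    simpa [W4.bar, W4.low] using low_one (-t)

lemma dt {w : W4 F[X]} (hw : Word w) : W4.dt X w = 0 := by
  induction hw with
  | one => simp [W4.dt, W4.one]
  | up t _ ih => rw [W4.dt_mul, ih]; simp [W4.dt, W4.up]
  | low t _ ih => rw [W4.dt_mul, ih]; simp [W4.dt, W4.low]

end Word

variable {F : Type*} [Field F] {A : Type*} [Ring A] [Algebra F A]

/-- The polynomials in `N' * N`. -/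
noncomputable def ev (N N' : A) : F[X] →ₐ[F] A := aeval (N' * N)

/-- The corner `N * p (N' * N)`. -/
noncomputable def psi (N N' : A) : F[X] →ₗ[F] A :=
  (LinearMap.mulLeft F N).comp (ev N N').toLinearMap

lemma psi_apply (N N' : A) (p : F[X]) : psi N N' p = N * ev N N' p := rfl

/-- The element with the four given corners. -/
noncomputable def lin (N N' : A) (w : W4 F[X]) : A :=
  N * ev N N' w.a * N' + N * ev N N' w.b + ev N N' w.c * N' + ev N N' w.d * (N' * N)

variable {N N' : A}

lemma ev_X : ev N N' (X : F[X]) = N' * N := aeval_X _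

lemma psi_mul (p g : F[X]) : psi N N' (p * g) = psi N N' p * ev N N' g := by
  rw [psi_apply, psi_apply, map_mul, mul_assoc]

lemma psi_mul_zero {p : F[X]} (h : psi N N' p = 0) (g : F[X]) : psi N N' (p * g) = 0 := by
  rw [psi_mul, h, zero_mul]

lemma psi_zero_mul {p : F[X]} (h : psi N N' p = 0) (g : F[X]) : psi N N' (g * p) = 0 := by
  rw [mul_comm, psi_mul_zero h]

lemma ev_X_mul (g : F[X]) : ev N N' (X * g) = N' * psi N N' g := by
  rw [map_mul, ev_X, psi_apply, mul_assoc]

lemma ev_mul_Z (g : F[X]) : ev N N' g * (N' * N) = ev N N' (X * g) := by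
  rw [mul_comm X g, map_mul, ev_X]

lemma psi_C (s : F) : psi N N' (C s) = s • N := by
  rw [psi_apply, ev, aeval_C, Algebra.smul_def, (Algebra.commutes s N).symm]

lemma psi_one : psi N N' (1 : F[X]) = N := by rw [psi_apply, map_one, mul_one]

section Sq

variable (hN : N * N = 0) (hN' : N' * N' = 0)
include hN hN'

lemma ev_mul_N (g : F[X]) : ev N N' g * N = g.eval 0 • N := by
  conv_lhs => rw [← X_mul_divX_add g]
  rw [map_add, add_mul, mul_comm X g.divX, map_mul, ev_X, mul_assoc, mul_assoc N', hN, mul_zero,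
    mul_zero, zero_add, ev, aeval_C, ← Algebra.smul_def, coeff_zero_eq_eval_zero]

lemma N'_mul_ev (g : F[X]) : N' * ev N N' g = g.eval 0 • N' := by
  conv_lhs => rw [← X_mul_divX_add g]
  rw [map_add, mul_add, map_mul, ev_X, ← mul_assoc, ← mul_assoc N' N', hN', zero_mul, zero_mul,
    zero_add, ev, aeval_C, Algebra.smul_def, (Algebra.commutes _ N').symm, coeff_zero_eq_eval_zero]

lemma lin_mul (v w : W4 F[X]) :
    lin N N' v * lin N N' w = lin N N'
      ⟨v.a * X * w.a + v.b * w.c, v.a * X * w.b + v.b * X * w.d,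
        v.c * X * w.a + v.d * X * w.c, v.c * w.b + v.d * X * w.d⟩ := by
  set u := ev (F := F) N N' with hu
  have z1 : ∀ p, N' * u p * N' = 0 := fun p => by
    rw [hu, N'_mul_ev hN hN', smul_mul_assoc, hN', smul_zero]
  have z2 : ∀ p, N * (u p * N) = 0 := fun p => by
    rw [hu, ev_mul_N hN hN', mul_smul_comm, hN, smul_zero]
  have z3 : ∀ p, N' * N * (u p * N) = 0 := fun p => by rw [mul_assoc, z2, mul_zero]
  have z4 : ∀ p, N' * (u p * (N' * N)) = 0 := fun p => by
    rw [← mul_assoc, ← mul_assoc, z1, zero_mul]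
  have z5 : ∀ p, N * (u p * (N * 1)) = 0 := fun p => by rw [mul_one, z2]
  obtain ⟨a, b, c, d⟩ := v
  obtain ⟨a', b', c', d'⟩ := w
  simp only [lin, map_add, map_mul, ← hu, mul_add, add_mul]
  rw [show u X = N' * N by rw [hu, ev_X]]
  have e1 : N * u a * N' * (N * u a' * N') = N * (u a * (N' * N) * u a') * N' := by noncomm_ring
  have e2 : N * u a * N' * (N * u b') = N * (u a * (N' * N) * u b') := by noncomm_ring
  have e3 : N * u a * N' * (u c' * N') = N * u a * (N' * u c' * N') := by noncomm_ring
  have e4 : N * u a * N' * (u d' * (N' * N)) = N * u a * (N' * (u d' * (N' * N))) := by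
    noncomm_ring
  have e5 : N * u b * (N * u a' * N') = N * (u b * N) * (u a' * N') := by noncomm_ring
  have e6 : N * u b * (N * u b') = N * (u b * N) * u b' := by noncomm_ring
  have e7 : N * u b * (u c' * N') = N * (u b * u c') * N' := by noncomm_ring
  have e8 : N * u b * (u d' * (N' * N)) = N * (u b * u d' * (N' * N)) := by noncomm_ring
  have e9 : u c * N' * (N * u a' * N') = u c * (N' * N) * u a' * N' := by noncomm_ring
  have e10 : u c * N' * (N * u b') = u c * (N' * N) * u b' := by noncomm_ring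
  have e11 : u c * N' * (u c' * N') = u c * (N' * u c' * N') := by noncomm_ring
  have e12 : u c * N' * (u d' * (N' * N)) = u c * (N' * (u d' * (N' * N))) := by noncomm_ring
  have e13 : u d * (N' * N) * (N * u a' * N') = u d * N' * (N * N) * (u a' * N') := by
    noncomm_ring
  have e14 : u d * (N' * N) * (N * u b') = u d * N' * (N * N) * u b' := by noncomm_ring
  have e15 : u d * (N' * N) * (u c' * N') = u d * (N' * N) * u c' * N' := by noncomm_ring
  have e16 : u d * (N' * N) * (u d' * (N' * N)) = u d * (N' * N) * u d' * (N' * N) := by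
    noncomm_ring
  rw [e1, e2, e3, e4, e5, e6, e7, e8, e9, e10, e11, e12, e13, e14, e15, e16]
  simp only [z1, z4, z2, hN, mul_zero, zero_mul, add_zero, zero_add]
  have hc : ∀ p q, u p * u q = u q * u p := fun p q => by rw [← map_mul, ← map_mul, mul_comm]
  have hx : ∀ p, (N' * N) * u p = u p * (N' * N) := fun p => by
    rw [show N' * N = u X by rw [hu, ev_X]]; exact hc _ _
  have r8 : u b * u d' * (N' * N) = u b * (N' * N) * u d' := by
    rw [mul_assoc, mul_assoc, hx]
  have r10 : u c * (N' * N) * u b' = u c * u b' * (N' * N) := by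
    rw [mul_assoc (u c), hx, ← mul_assoc]
  rw [r8, r10]
  abel

end Sq

lemma lin_add (v w : W4 F[X]) : lin N N' v + lin N N' w =
    lin N N' ⟨v.a + w.a, v.b + w.b, v.c + w.c, v.d + w.d⟩ := by
  simp only [lin, map_add, mul_add, add_mul]; abel

lemma lin_neg (v : W4 F[X]) : -lin N N' v = lin N N' ⟨-v.a, -v.b, -v.c, -v.d⟩ := by
  simp only [lin, map_neg, mul_neg, neg_mul]; abel

lemma lin_b (p : F[X]) : lin N N' ⟨0, p, 0, 0⟩ = psi N N' p := by
  simp [lin, psi_apply]

lemma lin_N : lin N N' (⟨0, 1, 0, 0⟩ : W4 F[X]) = N := by rw [lin_b, psi_one]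

lemma lin_one : lin N N' (W4.one : W4 F[X]) = 0 := by simp [lin, W4.one]

/-- The value of a word. -/
noncomputable def elem (N N' : A) (w : W4 F[X]) : A := 1 + lin N N' w

lemma elem_mul (hN : N * N = 0) (hN' : N' * N' = 0) (v w : W4 F[X]) :
    elem N N' v * elem N N' w = elem N N' (W4.mul X v w) := by
  rw [elem, elem, add_mul, one_mul, mul_add, mul_one, lin_mul hN hN',
    add_assoc, ← add_assoc (lin N N' w), lin_add, lin_add, elem]
  simp only [W4.mul]
  congr 3 <;> ring

lemma elem_bar (hN : N * N = 0) (hN' : N' * N' = 0) {w : W4 F[X]} (hw : W4.dt X w = 0) :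
    elem N N' w * elem N N' w.bar = 1 := by
  rw [elem_mul hN hN', show W4.mul X w w.bar = W4.one from ?_, elem, lin_one, add_zero]
  simp only [W4.dt] at hw
  apply W4.ext <;> simp only [W4.mul, W4.bar, W4.one] <;> first | linear_combination hw | ring

lemma inM_elem (hN : N * N = 0) (hN' : N' * N' = 0) {M : Subgroup Aˣ}
    (h : ∀ t : F, InM M (1 + t • N)) (h' : ∀ t : F, InM M (1 + t • N')) {w : W4 F[X]}
    (hw : Word w) : InM M (elem N N' w) := by
  induction hw with
  | one => rw [elem, lin_one, add_zero]; exact InM.one M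
  | up t _ ih =>
    rw [← elem_mul hN hN']
    refine ih.mul ?_
    rw [elem, show lin N N' (W4.up (C t)) = psi N N' (C t) from lin_b _, psi_C]
    exact h t
  | low t _ ih =>
    rw [← elem_mul hN hN']
    refine ih.mul ?_
    rw [elem, show lin N N' (W4.low (C t)) = t • N' by
      simp [lin, W4.low, ev, Algebra.smul_def]]
    exact h' t

lemma lin_mul_N (hN : N * N = 0) (hN' : N' * N' = 0) (w : W4 F[X]) :
    lin N N' w * N = lin N N' ⟨0, w.a * X, 0, w.c⟩ := by
  have h : lin N N' w * lin N N' (⟨0, 1, 0, 0⟩ : W4 F[X]) = lin N N' ⟨0, w.a * X, 0, w.c⟩ := by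
    rw [lin_mul hN hN']
    congr 1
    apply W4.ext <;> ring
  rwa [lin_N] at h

/-- The corners of the conjugate of `N` by a word. -/
noncomputable def conjW (w : W4 F[X]) : W4 F[X] :=
  ⟨-((1 + X * w.a) * w.c), (1 + X * w.a) ^ 2, -(X * w.c ^ 2), (1 + X * w.a) * w.c⟩

lemma conj_elem (hN : N * N = 0) (hN' : N' * N' = 0) (w : W4 F[X]) :
    elem N N' w * N * elem N N' w.bar = lin N N' (conjW w) := by
  have h1 : elem N N' w * N = lin N N' ⟨0, 1 + X * w.a, 0, w.c⟩ := by
    have h : lin N N' (⟨0, 1, 0, 0⟩ : W4 F[X]) + lin N N' ⟨0, w.a * X, 0, w.c⟩ =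
        lin N N' ⟨0, 1 + X * w.a, 0, w.c⟩ := by
      rw [lin_add]
      congr 1
      apply W4.ext <;> ring
    rw [lin_N] at h
    rw [elem, add_mul, one_mul, lin_mul_N hN hN', h]
  rw [h1, elem, mul_add, mul_one, lin_mul hN hN', lin_add]
  congr 1
  apply W4.ext <;> simp only [conjW, W4.bar] <;> ring

lemma psi_mul_lin (hN : N * N = 0) (hN' : N' * N' = 0) (p : F[X]) (w : W4 F[X]) :
    psi N N' p * lin N N' w = lin N N' ⟨p * w.c, p * X * w.d, 0, 0⟩ := by
  rw [← lin_b, lin_mul hN hN']
  congr 1
  apply W4.ext <;> ring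

/-- The corner of a conjugate. -/
lemma psi_conj (hN : N * N = 0) (hN' : N' * N' = 0) (w : W4 F[X]) (p : F[X]) :
    psi N (lin N N' (conjW w)) p = psi N N' (p.comp (-(X * w.c) ^ 2)) := by
  induction p using Polynomial.induction_on' with
  | add p q hp hq => rw [map_add, add_comp, map_add, hp, hq]
  | monomial n s =>
    rw [← C_mul_X_pow_eq_monomial, mul_comp, C_comp, pow_comp, X_comp, ← smul_eq_C_mul,
      ← smul_eq_C_mul, map_smul, map_smul]
    congr 1
    induction n with
    | zero => rw [pow_zero, pow_zero, psi_one, psi_one]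
    | succ n ih =>
      rw [pow_succ X n, psi_mul, ev_X, ih, lin_mul_N hN hN', psi_mul_lin hN hN', ← lin_b]
      congr 1
      apply W4.ext <;> simp only [conjW] <;> ring

end CfsgLib.Geometric.TensorForm
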